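import Mathlib
import Cfsg.Agent.Lib.Helper56.J3IsoChk

/-!
A verified replay of a Todd–Coxeter coset enumeration (helper56).

`tab (4 * ω + i)` packs the image of the point `ω` under the generator `i` (shifted by 17) and a
time stamp; `jus` says how the edge is justified (tree edge, subgroup generator at the base point, or
a relator all of whose other edges are older).
-/

set_option autoImplicit false

namespace Cfsg.Agent.Lib.Helper56.TC

open Cfsg.Agent.Lib.Helper56.J3 (force forceN force_eq forceN_eq)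

section words
variable {Γ : Type*} [Group Γ]

/-- evaluation of a word -/
def ev (y : ℕ → Γ) : List ℕ → Γ
  | [] => 1
  | i :: w => y i * ev y w

theorem ev_nil (y : ℕ → Γ) : ev y [] = 1 := rfl
theorem ev_cons (y : ℕ → Γ) (i : ℕ) (w : List ℕ) : ev y (i :: w) = y i * ev y w := rfl

theorem ev_append (y : ℕ → Γ) (a b : List ℕ) : ev y (a ++ b) = ev y a * ev y b := by
  induction a with
  | nil => simp [ev]
  | cons i a ih => simp [ev, ih, mul_assoc]

theorem ev_reverse (y : ℕ → Γ) (hy : ∀ i, y i * y i = 1) (a : List ℕ) :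
    ev y a.reverse = (ev y a)⁻¹ := by
  induction a with
  | nil => simp [ev]
  | cons i a ih =>
    rw [List.reverse_cons, ev_append, ih, ev_cons, ev_cons, ev_nil, mul_one, mul_inv_rev,
      inv_eq_of_mul_eq_one_right (hy i)]

/-- repetition of a word -/
def rep : ℕ → List ℕ → List ℕ
  | 0, _ => []
  | m + 1, l => l ++ rep m l

theorem ev_rep (y : ℕ → Γ) (m : ℕ) (l : List ℕ) : ev y (rep m l) = ev y l ^ m := by
  induction m with
  | zero => simp [rep, ev]
  | succ m ih => rw [rep, ev_append, ih, pow_succ']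

theorem ev_rot (y : ℕ → Γ) (l : List ℕ) (p : ℕ) (h : ev y l = 1) :
    ev y (l.drop p ++ l.take p) = 1 := by
  have h1 : ev y (l.take p) * ev y (l.drop p) = 1 := by
    rw [← ev_append, List.take_append_drop, h]
  rw [ev_append]
  exact mul_eq_one_iff_eq_inv.2 (eq_inv_of_mul_eq_one_right h1 ▸ rfl) |>.trans rfl

theorem ev_mem_closure (y : ℕ → Γ) (k : ℕ) (l : List ℕ) (hl : ∀ i ∈ l, i < k) :
    ev y l ∈ Subgroup.closure (y '' {i | i < k}) := by
  induction l with
  | nil => exact Subgroup.one_mem _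
  | cons i l ih =>
    exact Subgroup.mul_mem _ (Subgroup.subset_closure ⟨i, hl i (by simp), rfl⟩)
      (ih (fun j hj => hl j (by simp [hj])))

theorem map_ev {G : Type*} [Group G] (τ : Γ →* G) (y : ℕ → Γ) (l : List ℕ) :
    τ (ev y l) = ev (fun i => τ (y i)) l := by
  induction l with
  | nil => simp [ev]
  | cons i l ih => simp [ev, ih]

end words

/-- follow a word through the table, all the edges being older than `T` -/
def walk (tab : ℕ → ℕ) (k T : ℕ) : List ℕ → ℕ → ℕ
  | [], x => x
  | j :: v, x =>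
    bif Nat.blt j k then
      forceN (tab (4 * x + j)) fun e =>
        bif Nat.blt (e &&& 131071) T then walk tab k T v (e >>> 17) else 1048576
    else 1048576

/-- the check of one edge -/
def chkE (tab jus par : ℕ → ℕ) (rel : ℕ → List ℕ) (n k kL : ℕ) (e : ℕ) : Bool :=
  Nat.ble n (e >>> 2) || Nat.ble k (e &&& 3) ||
  (force (tab e) fun t =>
    Nat.blt (t >>> 17) n &&
    (force (jus e) fun J =>
      bif Nat.beq J 0 then Nat.beq (par (t >>> 17)) e && Nat.blt (e >>> 2) (t >>> 17)
      else bif Nat.beq J 1 then Nat.beq (e >>> 2) 0 && Nat.beq (t >>> 17) 0 && Nat.blt (e &&& 3) kL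
      else
        match (rel ((J - 2) >>> 7)).drop ((J - 2) &&& 127) ++
            (rel ((J - 2) >>> 7)).take ((J - 2) &&& 127) with
        | [] => false
        | j :: v => Nat.beq j (e &&& 3) &&
            Nat.beq (walk tab k (t &&& 131071) v (t >>> 17)) (e >>> 2)))

section main
variable {Γ : Type*} [Group Γ]

/-- coset representatives along the tree -/
noncomputable def sOf (y : ℕ → Γ) (par : ℕ → ℕ) (ω : ℕ) : Γ :=
  if h : par ω >>> 2 < ω then sOf y par (par ω >>> 2) * y (par ω &&& 3) else 1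
termination_by ω
decreasing_by exact h

theorem sOf_zero (y : ℕ → Γ) (par : ℕ → ℕ) : sOf y par 0 = 1 := by
  rw [sOf, dif_neg (Nat.not_lt_zero _)]

theorem sOf_tree (y : ℕ → Γ) (par : ℕ → ℕ) {ω ω' i : ℕ} (hi : i < 4) (h : par ω' = 4 * ω + i)
    (hlt : ω < ω') : sOf y par ω' = sOf y par ω * y i := by
  have h1 : par ω' >>> 2 = ω := by rw [h, Nat.shiftRight_eq_div_pow]; omega
  have h2 : par ω' &&& 3 = i := by
    rw [h, show (3 : ℕ) = 2 ^ 2 - 1 from rfl, Nat.and_two_pow_sub_one_eq_mod]; omega
  rw [sOf, dif_pos (by rw [h1]; exact hlt), h1, h2]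

variable (y : ℕ → Γ) (Lt : Subgroup Γ) (tab jus par : ℕ → ℕ) (rel : ℕ → List ℕ) (n k kL : ℕ)

theorem walk_good (T : ℕ)
    (IH : ∀ x < n, ∀ j < k, tab (4 * x + j) &&& 131071 < T →
      sOf y par x * y j * (sOf y par (tab (4 * x + j) >>> 17))⁻¹ ∈ Lt)
    (hr : ∀ x < n, ∀ j < k, tab (4 * x + j) >>> 17 < n) (hn : n < 1048576) :
    ∀ (v : List ℕ) (x z : ℕ), x < n → walk tab k T v x = z → z < n →
      sOf y par x * ev y v * (sOf y par z)⁻¹ ∈ Lt := by
  intro v
  induction v with
  | nil =>
    intro x z _ h _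
    rw [walk] at h
    subst h
    simp [ev, Lt.one_mem]
  | cons j v ih =>
    intro x z hx h hz
    rw [walk, forceN_eq] at h
    cases hj : Nat.blt j k with
    | false => rw [hj, cond_false] at h; omega
    | true =>
      rw [hj, cond_true] at h
      cases ht : Nat.blt (tab (4 * x + j) &&& 131071) T with
      | false => rw [ht, cond_false] at h; omega
      | true =>
        rw [ht, cond_true] at h
        have hj' : j < k := Nat.blt_eq.mp hj
        have ht' := Nat.blt_eq.mp ht
        have h1 := IH x hx j hj' ht'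
        have h2 := ih _ z (hr x hx j hj') h hz
        have := Lt.mul_mem h1 h2
        rw [ev_cons]
        convert this using 1
        group

theorem good_all (hk : k ≤ 4) (hn : n < 1048576) (hrel : ∀ r, ev y (rel r) = 1)
    (hL : ∀ i < kL, y i ∈ Lt)
    (hchk : ∀ e < 4 * n, chkE tab jus par rel n k kL e = true) :
    (∀ x < n, ∀ j < k, tab (4 * x + j) >>> 17 < n) ∧
    ∀ x < n, ∀ j < k, sOf y par x * y j * (sOf y par (tab (4 * x + j) >>> 17))⁻¹ ∈ Lt := by
  have e1 : ∀ x j, j < k → (4 * x + j) >>> 2 = x := by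
    intro x j hj; rw [Nat.shiftRight_eq_div_pow]; omega
  have e2 : ∀ x j, j < k → (4 * x + j) &&& 3 = j := by
    intro x j hj
    rw [show (3 : ℕ) = 2 ^ 2 - 1 from rfl, Nat.and_two_pow_sub_one_eq_mod]; omega
  have key : ∀ x < n, ∀ j < k, tab (4 * x + j) >>> 17 < n ∧
      ((par (tab (4 * x + j) >>> 17) = 4 * x + j ∧ x < tab (4 * x + j) >>> 17) ∨
       (x = 0 ∧ tab (4 * x + j) >>> 17 = 0 ∧ j < kL) ∨
       ∃ v : List ℕ, ev y (j :: v) = 1 ∧
         walk tab k (tab (4 * x + j) &&& 131071) v (tab (4 * x + j) >>> 17) = x) := by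
    intro x hx j hj
    have h := hchk (4 * x + j) (by omega)
    rw [chkE, e1 x j hj, e2 x j hj, force_eq, force_eq] at h
    have n1 : Nat.ble n x = false := by
      rw [← Bool.not_eq_true, Nat.ble_eq]; omega
    have n2 : Nat.ble k j = false := by
      rw [← Bool.not_eq_true, Nat.ble_eq]; omega
    rw [n1, n2, Bool.or_false, Bool.false_or, Bool.and_eq_true] at h
    refine ⟨Nat.blt_eq.mp h.1, ?_⟩
    have h := h.2
    cases hJ0 : Nat.beq (jus (4 * x + j)) 0 with
    | true =>
      rw [hJ0, cond_true, Bool.and_eq_true] at h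
      exact Or.inl ⟨Nat.eq_of_beq_eq_true h.1, Nat.blt_eq.mp h.2⟩
    | false =>
      rw [hJ0, cond_false] at h
      cases hJ1 : Nat.beq (jus (4 * x + j)) 1 with
      | true =>
        rw [hJ1, cond_true, Bool.and_eq_true, Bool.and_eq_true] at h
        exact Or.inr (Or.inl ⟨Nat.eq_of_beq_eq_true h.1.1, Nat.eq_of_beq_eq_true h.1.2,
          Nat.blt_eq.mp h.2⟩)
      | false =>
        rw [hJ1, cond_false] at h
        have hrot := ev_rot y (rel ((jus (4 * x + j) - 2) >>> 7)) ((jus (4 * x + j) - 2) &&& 127)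
          (hrel _)
        revert h hrot
        generalize (rel ((jus (4 * x + j) - 2) >>> 7)).drop ((jus (4 * x + j) - 2) &&& 127) ++
            (rel ((jus (4 * x + j) - 2) >>> 7)).take ((jus (4 * x + j) - 2) &&& 127) = l
        intro h hrot
        cases l with
        | nil => simp at h
        | cons j' v =>
          simp only [Bool.and_eq_true] at h
          have hj' := Nat.eq_of_beq_eq_true h.1
          subst hj'
          exact Or.inr (Or.inr ⟨v, hrot, Nat.eq_of_beq_eq_true h.2⟩)
  have hr : ∀ x < n, ∀ j < k, tab (4 * x + j) >>> 17 < n := fun x hx j hj => (key x hx j hj).1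
  refine ⟨hr, ?_⟩
  have main : ∀ T : ℕ, ∀ x < n, ∀ j < k, tab (4 * x + j) &&& 131071 < T →
      sOf y par x * y j * (sOf y par (tab (4 * x + j) >>> 17))⁻¹ ∈ Lt := by
    intro T
    induction T with
    | zero => intro x _ j _ h; omega
    | succ T ih =>
      intro x hx j hj hT
      by_cases hlt : tab (4 * x + j) &&& 131071 < T
      · exact ih x hx j hj hlt
      have hT' : tab (4 * x + j) &&& 131071 = T := by omega
      rcases (key x hx j hj).2 with ⟨h1, h2⟩ | ⟨h1, h2, h3⟩ | ⟨v, h1, h2⟩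
      · rw [sOf_tree y par (by omega) h1 h2]
        simp [Lt.one_mem]
      · rw [h2, h1, sOf_zero]
        simpa using hL j h3
      · rw [hT'] at h2
        have h3 := walk_good y Lt tab par n k T ih hr hn v _ x (hr x hx j hj) h2 hx
        have h4 : ev y v = (y j)⁻¹ := by
          rw [ev_cons] at h1
          exact eq_inv_of_mul_eq_one_right h1
        rw [h4] at h3
        have h5 := Lt.inv_mem h3
        convert h5 using 1
        group
  intro x hx j hj
  exact main _ x hx j hj (Nat.lt_succ_self _)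

theorem exists_rep (hy : ∀ i, y i * y i = 1) (hk : k ≤ 4) (hn0 : 0 < n) (hn : n < 1048576)
    (hrel : ∀ r, ev y (rel r) = 1) (hL : ∀ i < kL, y i ∈ Lt)
    (hchk : ∀ e < 4 * n, chkE tab jus par rel n k kL e = true) :
    ∀ g ∈ Subgroup.closure (y '' {i | i < k}), ∃ ω < n, g * (sOf y par ω)⁻¹ ∈ Lt := by
  obtain ⟨hr, hg⟩ := good_all y Lt tab jus par rel n k kL hk hn hrel hL hchk
  have step : ∀ g : Γ, (∃ ω < n, g * (sOf y par ω)⁻¹ ∈ Lt) → ∀ j < k,
      ∃ ω < n, g * y j * (sOf y par ω)⁻¹ ∈ Lt := by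
    rintro g ⟨ω, hω, h⟩ j hj
    refine ⟨_, hr ω hω j hj, ?_⟩
    have := Lt.mul_mem h (hg ω hω j hj)
    convert this using 1
    group
  intro g hg'
  induction hg' using Subgroup.closure_induction_right with
  | one => exact ⟨0, hn0, by rw [sOf_zero]; simp [Lt.one_mem]⟩
  | mul_right g x _ hx ih =>
    obtain ⟨j, hj, rfl⟩ := hx
    exact step g ih j hj
  | mul_inv_cancel g x _ hx ih =>
    obtain ⟨j, hj, rfl⟩ := hx
    rw [inv_eq_of_mul_eq_one_right (hy j)]
    exact step g ih j hj

theorem card_closure_le [Finite Γ] (hy : ∀ i, y i * y i = 1) (hk : k ≤ 4) (hn0 : 0 < n)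
    (hn : n < 1048576) (hrel : ∀ r, ev y (rel r) = 1) (hL : ∀ i < kL, y i ∈ Lt)
    (hchk : ∀ e < 4 * n, chkE tab jus par rel n k kL e = true) :
    Nat.card (Subgroup.closure (y '' {i | i < k})) ≤ Nat.card Lt * n := by
  have h := exists_rep y Lt tab jus par rel n k kL hy hk hn0 hn hrel hL hchk
  let f : Lt × Fin n → Γ := fun p => p.1 * sOf y par p.2
  have hsub : ((Subgroup.closure (y '' {i | i < k}) : Subgroup Γ) : Set Γ) ⊆ Set.range f := by
    intro g hg
    obtain ⟨ω, hω, h1⟩ := h g hg
    exact ⟨(⟨_, h1⟩, ⟨ω, hω⟩), by simp [f]⟩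
  calc Nat.card (Subgroup.closure (y '' {i | i < k}))
      = ((Subgroup.closure (y '' {i | i < k}) : Subgroup Γ) : Set Γ).ncard := by
        rw [← Nat.card_coe_set_eq]; rfl
    _ ≤ (Set.range f).ncard := Set.ncard_le_ncard hsub (Set.toFinite _)
    _ ≤ Nat.card (Lt × Fin n) := by
        rw [← Set.image_univ, ← Set.ncard_univ]
        exact Set.ncard_image_le (Set.toFinite _)
    _ = Nat.card Lt * n := by rw [Nat.card_prod, Nat.card_fin]

end main

end Cfsg.Agent.Lib.Helper56.TC
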