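import Mathlib
import Cfsg.Agent.Lib.Helper56.TCGen

/-!
The replay of a Todd–Coxeter enumeration of `TCGen`, for up to eight letters closed under inverses
(helper56).
-/

set_option autoImplicit false

namespace Cfsg.Agent.Lib.Helper56.TC

open Cfsg.Agent.Lib.Helper56.J3 (force forceN force_eq forceN_eq)

/-- follow a word through the table, all the edges being older than `T` -/
def walk8 (tab : ℕ → ℕ) (k T : ℕ) : List ℕ → ℕ → ℕ
  | [], x => x
  | j :: v, x =>
    bif Nat.blt j k then
      forceN (tab (8 * x + j)) fun e =>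
        bif Nat.blt (e &&& 131071) T then walk8 tab k T v (e >>> 17) else 1048576
    else 1048576

/-- the check of one edge -/
def chkE8 (tab jus par : ℕ → ℕ) (rel : ℕ → List ℕ) (n k kL : ℕ) (e : ℕ) : Bool :=
  Nat.ble n (e >>> 3) || Nat.ble k (e &&& 7) ||
  (force (tab e) fun t =>
    Nat.blt (t >>> 17) n &&
    (force (jus e) fun J =>
      bif Nat.beq J 0 then Nat.beq (par (t >>> 17)) e && Nat.blt (e >>> 3) (t >>> 17)
      else bif Nat.beq J 1 then Nat.beq (e >>> 3) 0 && Nat.beq (t >>> 17) 0 && Nat.blt (e &&& 7) kL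
      else
        match (rel ((J - 2) >>> 7)).drop ((J - 2) &&& 127) ++
            (rel ((J - 2) >>> 7)).take ((J - 2) &&& 127) with
        | [] => false
        | j :: v => Nat.beq j (e &&& 7) &&
            Nat.beq (walk8 tab k (t &&& 131071) v (t >>> 17)) (e >>> 3)))

section main
variable {Γ : Type*} [Group Γ]

/-- coset representatives along the tree -/
noncomputable def sOf8 (y : ℕ → Γ) (par : ℕ → ℕ) (ω : ℕ) : Γ :=
  if h : par ω >>> 3 < ω then sOf8 y par (par ω >>> 3) * y (par ω &&& 7) else 1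
termination_by ω
decreasing_by exact h

theorem sOf8_zero (y : ℕ → Γ) (par : ℕ → ℕ) : sOf8 y par 0 = 1 := by
  rw [sOf8, dif_neg (Nat.not_lt_zero _)]

theorem sOf8_tree (y : ℕ → Γ) (par : ℕ → ℕ) {ω ω' i : ℕ} (hi : i < 8) (h : par ω' = 8 * ω + i)
    (hlt : ω < ω') : sOf8 y par ω' = sOf8 y par ω * y i := by
  have h1 : par ω' >>> 3 = ω := by rw [h, Nat.shiftRight_eq_div_pow]; omega
  have h2 : par ω' &&& 7 = i := by
    rw [h, show (7 : ℕ) = 2 ^ 3 - 1 from rfl, Nat.and_two_pow_sub_one_eq_mod]; omega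
  rw [sOf8, dif_pos (by rw [h1]; exact hlt), h1, h2]

variable (y : ℕ → Γ) (Lt : Subgroup Γ) (tab jus par : ℕ → ℕ) (rel : ℕ → List ℕ) (n k kL : ℕ)

theorem walk8_good (T : ℕ)
    (IH : ∀ x < n, ∀ j < k, tab (8 * x + j) &&& 131071 < T →
      sOf8 y par x * y j * (sOf8 y par (tab (8 * x + j) >>> 17))⁻¹ ∈ Lt)
    (hr : ∀ x < n, ∀ j < k, tab (8 * x + j) >>> 17 < n) (hn : n < 1048576) :
    ∀ (v : List ℕ) (x z : ℕ), x < n → walk8 tab k T v x = z → z < n →
      sOf8 y par x * ev y v * (sOf8 y par z)⁻¹ ∈ Lt := by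
  intro v
  induction v with
  | nil =>
    intro x z _ h _
    rw [walk8] at h
    subst h
    simp [ev, Lt.one_mem]
  | cons j v ih =>
    intro x z hx h hz
    rw [walk8, forceN_eq] at h
    cases hj : Nat.blt j k with
    | false => rw [hj, cond_false] at h; omega
    | true =>
      rw [hj, cond_true] at h
      cases ht : Nat.blt (tab (8 * x + j) &&& 131071) T with
      | false => rw [ht, cond_false] at h; omega
      | true =>
        rw [ht, cond_true] at h
        have hj' : j < k := Nat.blt_eq.mp hj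
        have ht' := Nat.blt_eq.mp ht
        have h1 := IH x hx j hj' ht'
        have h2 := ih _ z (hr x hx j hj') h hz
        have := Lt.mul_mem h1 h2
        rw [ev_cons]
        convert this using 1
        group

theorem good_all8 (hk : k ≤ 8) (hn : n < 1048576) (hrel : ∀ r, ev y (rel r) = 1)
    (hL : ∀ i < kL, y i ∈ Lt)
    (hchk : ∀ e < 8 * n, chkE8 tab jus par rel n k kL e = true) :
    (∀ x < n, ∀ j < k, tab (8 * x + j) >>> 17 < n) ∧
    ∀ x < n, ∀ j < k, sOf8 y par x * y j * (sOf8 y par (tab (8 * x + j) >>> 17))⁻¹ ∈ Lt := by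
  have e1 : ∀ x j, j < k → (8 * x + j) >>> 3 = x := by
    intro x j hj; rw [Nat.shiftRight_eq_div_pow]; omega
  have e2 : ∀ x j, j < k → (8 * x + j) &&& 7 = j := by
    intro x j hj
    rw [show (7 : ℕ) = 2 ^ 3 - 1 from rfl, Nat.and_two_pow_sub_one_eq_mod]; omega
  have key : ∀ x < n, ∀ j < k, tab (8 * x + j) >>> 17 < n ∧
      ((par (tab (8 * x + j) >>> 17) = 8 * x + j ∧ x < tab (8 * x + j) >>> 17) ∨
       (x = 0 ∧ tab (8 * x + j) >>> 17 = 0 ∧ j < kL) ∨
       ∃ v : List ℕ, ev y (j :: v) = 1 ∧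
         walk8 tab k (tab (8 * x + j) &&& 131071) v (tab (8 * x + j) >>> 17) = x) := by
    intro x hx j hj
    have h := hchk (8 * x + j) (by omega)
    rw [chkE8, e1 x j hj, e2 x j hj, force_eq, force_eq] at h
    have n1 : Nat.ble n x = false := by
      rw [← Bool.not_eq_true, Nat.ble_eq]; omega
    have n2 : Nat.ble k j = false := by
      rw [← Bool.not_eq_true, Nat.ble_eq]; omega
    rw [n1, n2, Bool.or_false, Bool.false_or, Bool.and_eq_true] at h
    refine ⟨Nat.blt_eq.mp h.1, ?_⟩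
    have h := h.2
    cases hJ0 : Nat.beq (jus (8 * x + j)) 0 with
    | true =>
      rw [hJ0, cond_true, Bool.and_eq_true] at h
      exact Or.inl ⟨Nat.eq_of_beq_eq_true h.1, Nat.blt_eq.mp h.2⟩
    | false =>
      rw [hJ0, cond_false] at h
      cases hJ1 : Nat.beq (jus (8 * x + j)) 1 with
      | true =>
        rw [hJ1, cond_true, Bool.and_eq_true, Bool.and_eq_true] at h
        exact Or.inr (Or.inl ⟨Nat.eq_of_beq_eq_true h.1.1, Nat.eq_of_beq_eq_true h.1.2,
          Nat.blt_eq.mp h.2⟩)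
      | false =>
        rw [hJ1, cond_false] at h
        have hrot := ev_rot y (rel ((jus (8 * x + j) - 2) >>> 7)) ((jus (8 * x + j) - 2) &&& 127)
          (hrel _)
        revert h hrot
        generalize (rel ((jus (8 * x + j) - 2) >>> 7)).drop ((jus (8 * x + j) - 2) &&& 127) ++
            (rel ((jus (8 * x + j) - 2) >>> 7)).take ((jus (8 * x + j) - 2) &&& 127) = l
        intro h hrot
        cases l with
        | nil => simp at h
        | cons j' v =>
          simp only [Bool.and_eq_true] at h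
          have hj' := Nat.eq_of_beq_eq_true h.1
          subst hj'
          exact Or.inr (Or.inr ⟨v, hrot, Nat.eq_of_beq_eq_true h.2⟩)
  have hr : ∀ x < n, ∀ j < k, tab (8 * x + j) >>> 17 < n := fun x hx j hj => (key x hx j hj).1
  refine ⟨hr, ?_⟩
  have main : ∀ T : ℕ, ∀ x < n, ∀ j < k, tab (8 * x + j) &&& 131071 < T →
      sOf8 y par x * y j * (sOf8 y par (tab (8 * x + j) >>> 17))⁻¹ ∈ Lt := by
    intro T
    induction T with
    | zero => intro x _ j _ h; omega
    | succ T ih =>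
      intro x hx j hj hT
      by_cases hlt : tab (8 * x + j) &&& 131071 < T
      · exact ih x hx j hj hlt
      have hT' : tab (8 * x + j) &&& 131071 = T := by omega
      rcases (key x hx j hj).2 with ⟨h1, h2⟩ | ⟨h1, h2, h3⟩ | ⟨v, h1, h2⟩
      · rw [sOf8_tree y par (by omega) h1 h2]
        simp [Lt.one_mem]
      · rw [h2, h1, sOf8_zero]
        simpa using hL j h3
      · rw [hT'] at h2
        have h3 := walk8_good y Lt tab par n k T ih hr hn v _ x (hr x hx j hj) h2 hx
        have h4 : ev y v = (y j)⁻¹ := by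
          rw [ev_cons] at h1
          exact eq_inv_of_mul_eq_one_right h1
        rw [h4] at h3
        have h5 := Lt.inv_mem h3
        convert h5 using 1
        group
  intro x hx j hj
  exact main _ x hx j hj (Nat.lt_succ_self _)

theorem exists_rep8 (hy : ∀ j < k, ∃ j' < k, (y j)⁻¹ = y j') (hk : k ≤ 8) (hn0 : 0 < n) (hn : n < 1048576)
    (hrel : ∀ r, ev y (rel r) = 1) (hL : ∀ i < kL, y i ∈ Lt)
    (hchk : ∀ e < 8 * n, chkE8 tab jus par rel n k kL e = true) :
    ∀ g ∈ Subgroup.closure (y '' {i | i < k}), ∃ ω < n, g * (sOf8 y par ω)⁻¹ ∈ Lt := by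
  obtain ⟨hr, hg⟩ := good_all8 y Lt tab jus par rel n k kL hk hn hrel hL hchk
  have step : ∀ g : Γ, (∃ ω < n, g * (sOf8 y par ω)⁻¹ ∈ Lt) → ∀ j < k,
      ∃ ω < n, g * y j * (sOf8 y par ω)⁻¹ ∈ Lt := by
    rintro g ⟨ω, hω, h⟩ j hj
    refine ⟨_, hr ω hω j hj, ?_⟩
    have := Lt.mul_mem h (hg ω hω j hj)
    convert this using 1
    group
  intro g hg'
  induction hg' using Subgroup.closure_induction_right with
  | one => exact ⟨0, hn0, by rw [sOf8_zero]; simp [Lt.one_mem]⟩
  | mul_right g x _ hx ih =>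
    obtain ⟨j, hj, rfl⟩ := hx
    exact step g ih j hj
  | mul_inv_cancel g x _ hx ih =>
    obtain ⟨j, hj, rfl⟩ := hx
    obtain ⟨j', hj', e⟩ := hy j hj
    rw [e]
    exact step g ih j' hj'

theorem card_closure_le8 [Finite Γ] (hy : ∀ j < k, ∃ j' < k, (y j)⁻¹ = y j') (hk : k ≤ 8) (hn0 : 0 < n)
    (hn : n < 1048576) (hrel : ∀ r, ev y (rel r) = 1) (hL : ∀ i < kL, y i ∈ Lt)
    (hchk : ∀ e < 8 * n, chkE8 tab jus par rel n k kL e = true) :
    Nat.card (Subgroup.closure (y '' {i | i < k})) ≤ Nat.card Lt * n := by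
  have h := exists_rep8 y Lt tab jus par rel n k kL hy hk hn0 hn hrel hL hchk
  let f : Lt × Fin n → Γ := fun p => p.1 * sOf8 y par p.2
  have hsub : ((Subgroup.closure (y '' {i | i < k}) : Subgroup Γ) : Set Γ) ⊆ Set.range f := by
    intro g hg
    obtain ⟨ω, hω, h1⟩ := h g hg
    exact ⟨(⟨_, h1⟩, ⟨ω, hω⟩), by simp [f]⟩
  calc Nat.card (Subgroup.closure (y '' {i | i < k}))
      = ((Subgroup.closure (y '' {i | i < k}) : Subgroup Γ) : Set Γ).ncard := by
        rw [← Nat.card_coe_set_eq]; rfl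
    _ ≤ (Set.range f).ncard := Set.ncard_le_ncard hsub (Set.toFinite _)
    _ ≤ Nat.card (Lt × Fin n) := by
        rw [← Set.image_univ, ← Set.ncard_univ]
        exact Set.ncard_image_le (Set.toFinite _)
    _ = Nat.card Lt * n := by rw [Nat.card_prod, Nat.card_fin]

end main



end Cfsg.Agent.Lib.Helper56.TC
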