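import Mathlib
import Cfsg.Agent.Lib.Helper56.TC8

/-!
Canonical lifts of elements of order prime to the kernel of a central extension, and relators saying
that two conjugates of powers of the generators agree (helper56).
-/

set_option autoImplicit false

namespace Cfsg.Agent.Lib.Helper56.TC

open Subgroup

def iv (j : ℕ) : ℕ := bif Nat.beq (j % 2) 0 then j + 1 else j - 1

theorem iv_even {j : ℕ} (h : j % 2 = 0) : iv j = j + 1 := by
  unfold iv; rw [h]; rfl

theorem iv_odd {j : ℕ} (h : j % 2 = 1) : iv j = j - 1 := by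
  unfold iv; rw [h]; rfl

def invw (W : List ℕ) : List ℕ := (W.map iv).reverse

def relP (W : List ℕ) (a k b l : ℕ) : List ℕ :=
  invw W ++ (List.replicate k a ++ (W ++ List.replicate l b))

def relQ (t : List ℕ × ℕ × ℕ × ℕ × ℕ) : List ℕ := relP t.1 t.2.1 t.2.2.1 t.2.2.2.1 t.2.2.2.2

/-- the relators of a certificate -/
def relT (WL : List (List ℕ)) (r0 r : ℕ) : List ℕ :=
  bif Nat.blt r 8 then [r, iv r] else bif Nat.blt r 12 then List.replicate r0 (2 * (r - 8)) else
    WL.getD (r - 12) []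

section
variable {Γ : Type*} [Group Γ]

theorem ev_replicate (y : ℕ → Γ) (k a : ℕ) : ev y (List.replicate k a) = y a ^ k := by
  induction k with
  | zero => simp [ev]
  | succ k ih => rw [List.replicate_succ, ev_cons, ih, pow_succ']

theorem ev_invw (y : ℕ → Γ) (hiv : ∀ j, y (iv j) = (y j)⁻¹) (W : List ℕ) :
    ev y (invw W) = (ev y W)⁻¹ := by
  induction W with
  | nil => simp [invw, ev]
  | cons i W ih =>
    have e : invw (i :: W) = invw W ++ [iv i] := by simp [invw]
    rw [e, ev_append, ih, ev_cons, ev_cons, ev_nil, mul_one, hiv, mul_inv_rev]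

theorem ev_relP (y : ℕ → Γ) (hiv : ∀ j, y (iv j) = (y j)⁻¹) (W : List ℕ) (a k b l : ℕ) :
    ev y (relP W a k b l) = (ev y W)⁻¹ * y a ^ k * ev y W * y b ^ l := by
  rw [relP, ev_append, ev_append, ev_append, ev_invw y hiv, ev_replicate, ev_replicate]
  group

theorem relT_valid (y : ℕ → Γ) (hiv : ∀ j, y (iv j) = (y j)⁻¹) (r0 : ℕ) (hr : ∀ j, y j ^ r0 = 1)
    (WL : List (List ℕ)) (h : ∀ w ∈ WL, ev y w = 1) : ∀ r, ev y (relT WL r0 r) = 1 := by
  intro r
  unfold relT
  cases Nat.blt r 8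
  · cases Nat.blt r 12
    · simp only [cond_false]
      by_cases hl : r - 12 < WL.length
      · rw [List.getD_eq_getElem _ _ hl]
        exact h _ (List.getElem_mem hl)
      · rw [List.getD_eq_default _ _ (by omega)]
        rfl
    · simp only [cond_false, cond_true]
      rw [ev_replicate, hr]
  · simp only [cond_true]
    rw [ev_cons, ev_cons, ev_nil, mul_one, hiv, mul_inv_cancel]

end

section
variable {A B : Type*} [Group A] [Group B] (φ : A →* B) (hc : φ.ker ≤ center A) (m r : ℕ)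
  (hm : ∀ z ∈ φ.ker, z ^ m = 1) (hcop : Nat.Coprime m r)
include hc hm hcop

theorem eq_of_pow {X Y : A} (hX : X ^ r = 1) (hY : Y ^ r = 1) (h : φ X = φ Y) : X = Y := by
  set z := Y⁻¹ * X with hz
  have hzk : z ∈ φ.ker := by rw [MonoidHom.mem_ker, hz, map_mul, map_inv, h, inv_mul_cancel]
  have hzc : ∀ g, g * z = z * g := fun g => mem_center_iff.1 (hc hzk) g
  have e : X = Y * z := by rw [hz]; group
  have h1 : z ^ r = 1 := by
    have : (Y * z) ^ r = Y ^ r * z ^ r := (show Commute Y z from hzc Y).mul_pow r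
    rw [← e, hX, hY, one_mul] at this
    exact this.symm
  have h2 : z ^ Nat.gcd m r = 1 := by
    rw [pow_gcd_eq_one]; exact ⟨hm z hzk, h1⟩
  rw [hcop, pow_one] at h2
  rw [e, h2, mul_one]

theorem exists_lift_pow (hs : Function.Surjective φ) (h1 : 1 < m) {b : B} (hb : b ^ r = 1) :
    ∃ a, φ a = b ∧ a ^ r = 1 := by
  obtain ⟨h, rfl⟩ := hs b
  set z := h ^ r with hz
  have hzk : z ∈ φ.ker := by rw [MonoidHom.mem_ker, hz, map_pow, hb]
  have hzc : ∀ g, g * z = z * g := fun g => mem_center_iff.1 (hc hzk) g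
  obtain ⟨u, -, hu⟩ := Nat.exists_mul_mod_eq_one_of_coprime hcop.symm h1
  have e1 : z ^ (r * u) = z := by
    rw [pow_eq_pow_mod _ (hm z hzk), hu, pow_one]
  refine ⟨h * (z ^ u)⁻¹, ?_, ?_⟩
  · have : φ z = 1 := hzk
    rw [map_mul, map_inv, map_pow, this, one_pow, inv_one, mul_one]
  · have hcm : Commute h (z ^ u)⁻¹ := ((show Commute h z from hzc h).pow_right u).inv_right
    rw [hcm.mul_pow, ← hz, inv_pow, ← pow_mul, mul_comm u r, e1, mul_inv_cancel]

/-- lifting the letters together with the relators -/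
theorem lift_letters (hs : Function.Surjective φ) (h1 : 1 < m) (y : ℕ → B)
    (hiv : ∀ j, y (iv j) = (y j)⁻¹) (hr : ∀ j, y j ^ r = 1) :
    ∃ y' : ℕ → A, (∀ j, φ (y' j) = y j) ∧ (∀ j, y' (iv j) = (y' j)⁻¹) ∧ (∀ j, y' j ^ r = 1) ∧
      ∀ t, ev y (relQ t) = 1 → ev y' (relQ t) = 1 := by
  have hl : ∀ i, ∃ a, φ a = y (2 * i) ∧ a ^ r = 1 := fun i =>
    exists_lift_pow φ hc m r hm hcop hs h1 (hr _)
  choose L hL1 hL2 using hl
  let y' : ℕ → A := fun j => if j % 2 = 0 then L (j / 2) else (L (j / 2))⁻¹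
  have hφ : ∀ j, φ (y' j) = y j := by
    intro j
    by_cases hj : j % 2 = 0
    · simp only [y', if_pos hj]
      rw [hL1]
      congr 1
      omega
    · simp only [y', if_neg hj]
      rw [map_inv, hL1, ← hiv, iv_even (by omega)]
      congr 1
      omega
  have hiv' : ∀ j, y' (iv j) = (y' j)⁻¹ := by
    intro j
    by_cases hj : j % 2 = 0
    · rw [iv_even hj]
      simp only [y', if_pos hj, if_neg (show ¬ (j + 1) % 2 = 0 by omega)]
      rw [show (j + 1) / 2 = j / 2 by omega]
    · rw [iv_odd (by omega)]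
      simp only [y', if_neg hj, if_pos (show (j - 1) % 2 = 0 by omega)]
      rw [show (j - 1) / 2 = j / 2 by omega, inv_inv]
  have hr' : ∀ j, y' j ^ r = 1 := by
    intro j
    by_cases hj : j % 2 = 0
    · simp only [y', if_pos hj]; exact hL2 _
    · simp only [y', if_neg hj]; rw [inv_pow, hL2, inv_one]
  refine ⟨y', hφ, hiv', hr', ?_⟩
  rintro ⟨W, a, k, b, l⟩ h
  simp only [relQ] at h ⊢
  rw [ev_relP y hiv] at h
  rw [ev_relP y' hiv']
  have hfun : (fun i => φ (y' i)) = y := funext hφ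
  have key : (ev y' W)⁻¹ * y' a ^ k * ev y' W = (y' b ^ l)⁻¹ := by
    apply eq_of_pow φ hc m r hm hcop
    · have : ((ev y' W)⁻¹ * y' a ^ k * ev y' W) ^ r = (ev y' W)⁻¹ * (y' a ^ k) ^ r * ev y' W := by
        have := conj_pow (a := (ev y' W)⁻¹) (b := y' a ^ k) (i := r)
        rw [inv_inv] at this
        exact this
      rw [this, ← pow_mul, mul_comm k r, pow_mul, hr', one_pow]
      group
    · rw [inv_pow, ← pow_mul, mul_comm l r, pow_mul, hr', one_pow, inv_one]
    · rw [map_mul, map_mul, map_inv, map_inv, map_pow, map_pow, map_ev, hfun, hφ, hφ]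
      exact eq_inv_of_mul_eq_one_left h
  rw [key, inv_mul_cancel]

end

end Cfsg.Agent.Lib.Helper56.TC
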