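import Mathlib
import Cfsg.Agent.Lib.Helper56.J3Final
import Cfsg.Agent.Lib.Helper56.J3IsoChk

/-!
The orbits of `3·J₃` on the lines of its 9-space over the field with four elements (helper56):
the orbit of the first coordinate line has 23256 elements, the isotropic lines form one orbit.
-/

set_option autoImplicit false
set_option linter.unusedSectionVars false

namespace Cfsg.Agent.Lib.Helper56.J3

open Cfsg.Spor

section
variable {F : Type*} [Field F] {ω : F}

theorem ent_cube (h : Hyp ω) (v p : ℕ) :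
    (ent ω v p) ^ 3 = bF F (v.testBit p || v.testBit (p + 1)) := by
  have h2 := h.two
  have ho := h.om
  unfold ent
  cases v.testBit p <;> cases v.testBit (p + 1) <;> simp [bF]
  · linear_combination (ω + 1) * ho + ω * h2
  · linear_combination (ω + 4) * ho + (4 * ω + 2) * h2

def nzb (v k : ℕ) : Bool := v.testBit (2 * k) || v.testBit (2 * k + 1)

def parB (v : ℕ) : Bool :=
  nzb v 0 ^^ nzb v 1 ^^ nzb v 2 ^^ nzb v 3 ^^ nzb v 4 ^^ nzb v 5 ^^ nzb v 6 ^^ nzb v 7 ^^ nzb v 8

theorem sum_cube (h : Hyp ω) (v : ℕ) : ∑ z, (decV ω v z) ^ 3 = bF F (parB v) := by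
  have e := sum_F9 (F := F) (fun k => (ent ω v (2 * k)) ^ 3)
  simp only [decV]
  rw [e]
  simp only [Finset.sum_range_succ, Finset.sum_range_zero, zero_add, ent_cube h, parB, bF_xor h,
    nzb]

theorem par9_eq (v : ℕ) (hv : v < 2 ^ 18) : par9 v = (parB v).toNat := by
  have hb : ∀ k, 18 ≤ k → v.testBit k = false := fun k hk =>
    Nat.testBit_eq_false_of_lt (lt_of_lt_of_le hv (Nat.pow_le_pow_right (by norm_num) hk))
  have key : ∀ w : ℕ, w &&& 1 = (w.testBit 0).toNat := by
    intro w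
    rw [Nat.and_one_is_mod, Nat.testBit_zero]
    rcases Nat.mod_two_eq_zero_or_one w with h | h <;> simp [h]
  rw [par9, key]
  congr 1
  simp only [Nat.testBit_xor, Nat.testBit_shiftRight, Nat.testBit_or, parB, nzb]
  simp only [Nat.reduceAdd, Nat.reduceMul, Nat.add_zero, Nat.zero_add, Nat.mul_zero]
  rw [hb 18 (by norm_num), hb 19 (by norm_num), hb 20 (by norm_num), hb 21 (by norm_num),
    hb 22 (by norm_num), hb 23 (by norm_num)]
  generalize (v.testBit 0 || v.testBit 1) = b0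
  generalize (v.testBit 2 || v.testBit 3) = b1
  generalize (v.testBit 4 || v.testBit 5) = b2
  generalize (v.testBit 6 || v.testBit 7) = b3
  generalize (v.testBit 8 || v.testBit 9) = b4
  generalize (v.testBit 10 || v.testBit 11) = b5
  generalize (v.testBit 12 || v.testBit 13) = b6
  generalize (v.testBit 14 || v.testBit 15) = b7
  generalize (v.testBit 16 || v.testBit 17) = b8
  revert b0 b1 b2 b3 b4 b5 b6 b7 b8
  decide

theorem par9_eq_zero_iff (h : Hyp ω) (v : ℕ) (hv : v < 2 ^ 18) :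
    par9 v = 0 ↔ ∑ z, (decV ω v z) ^ 3 = 0 := by
  rw [par9_eq v hv, sum_cube h]
  cases parB v <;> simp [bF]

/-- `x` can be moved to the line of the root vector -/
def PI (h : Hyp ω) (x : F9 → F) : Prop :=
  ∃ g ∈ KK h, ∃ c : F, c ≠ 0 ∧ (g : Matrix F9 F9 F).mulVec x = c • decV ω 5

theorem PI_smul (h : Hyp ω) {x : F9 → F} {d : F} (hd : d ≠ 0) (hx : PI h (d • x)) : PI h x := by
  obtain ⟨g, hg, c, hc, e⟩ := hx
  refine ⟨g, hg, d⁻¹ * c, mul_ne_zero (inv_ne_zero hd) hc, ?_⟩
  rw [Matrix.mulVec_smul] at e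
  rw [mul_smul, ← e, smul_smul, inv_mul_cancel₀ hd, one_smul]

theorem PI_mul (h : Hyp ω) {t : GL F9 F} (ht : t ∈ KK h) {x : F9 → F}
    (hx : PI h ((t : Matrix F9 F9 F).mulVec x)) : PI h x := by
  obtain ⟨g, hg, c, hc, e⟩ := hx
  exact ⟨g * t, Subgroup.mul_mem _ hg ht, c, hc, by
    rw [Units.val_mul, ← Matrix.mulVec_mulVec, e]⟩

theorem canon_cases (v : ℕ) : canon v = v ∨ canon v = mulw v ∨ canon v = v ^^^ mulw v := by
  unfold canon
  rcases min_choice v (min (mulw v) (v ^^^ mulw v)) with e | e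
  · exact Or.inl e
  · rw [e]
    rcases min_choice (mulw v) (v ^^^ mulw v) with e | e
    · exact Or.inr (Or.inl e)
    · exact Or.inr (Or.inr e)

theorem canon_spec (h : Hyp ω) (v : ℕ) : ∃ d : F, d ≠ 0 ∧ decV ω (canon v) = d • decV ω v := by
  rcases canon_cases v with e | e | e
  · exact ⟨1, one_ne_zero, by rw [e, one_smul]⟩
  · exact ⟨ω, h.om_ne_zero, by rw [e, decV_mulw h]⟩
  · exact ⟨1 + ω, h.one_add_om_ne_zero, by rw [e, decV_xor h, decV_mulw h, add_smul, one_smul]⟩

theorem canon_canon (h : Hyp ω) {v : ℕ} (hv : v < 2 ^ 18) : canon (canon v) = canon v := by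
  rcases canon_cases v with e | e | e
  · exact congrArg canon e
  · calc canon (canon v) = canon (mulw v) := by rw [e]
      _ = canon v := canon_mulw h hv
  · calc canon (canon v) = canon (mulw (mulw v)) := by rw [e, mulw_mulw h hv]
      _ = canon (mulw v) := canon_mulw h (mulw_lt hv)
      _ = canon v := canon_mulw h hv

theorem canon_lt {v : ℕ} (hv : v < 2 ^ 18) : canon v < 2 ^ 18 :=
  lt_of_le_of_lt (min_le_left _ _) hv

theorem decV_zero (ω : F) : decV ω 0 = 0 := by
  ext w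
  simp [decV, ent, bF]

theorem PI_good (h : Hyp ω) : ∀ v, v < 2 ^ 18 → canon v = v → par9 v = 0 → v ≠ 0 →
    PI h (decV ω v) := by
  refine descent (fun v => v < 2 ^ 18 → canon v = v → par9 v = 0 → v ≠ 0 → PI h (decV ω v))
    (fun v => Itab v &&& 31) ?_
  intro v ih hv hc hp h0
  have hk := cI v hv
  rw [chkI, force_eq, Bool.or_eq_true, Bool.or_eq_true, Bool.or_eq_true, Bool.or_eq_true] at hk
  rcases hk with (((hk | hk) | hk) | hk) | hk
  · rw [canonF_eq, hc] at hk
    simp at hk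
  · rw [hp] at hk
    simp at hk
  · exact absurd (Nat.eq_of_beq_eq_true hk) h0
  · have : v = 5 := Nat.eq_of_beq_eq_true hk
    subst this
    exact ⟨1, Subgroup.one_mem _, 1, one_ne_zero, by
      rw [Units.val_one, Matrix.one_mulVec, one_smul]⟩
  · rw [Bool.and_eq_true, Bool.and_eq_true] at hk
    obtain ⟨⟨k1, k2⟩, k3⟩ := hk
    have k1 := Nat.eq_of_beq_eq_true k1
    have k2 := Nat.blt_eq.mp k2
    have k3 := Nat.blt_eq.mp k3
    have key : ∀ (t : GL F9 F) (c : ℕ), t ∈ KK h → Rep ω t c →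
        stepI v = canon (col (mulCode c v) 0) → PI h (decV ω v) := by
      intro t c ht hr e
      rw [e] at k1 k2 k3
      have hlt := col_lt (mulCode c v) 0
      have h1 := ih _ k3 (canon_lt hlt) (canon_canon h hlt) k1 k2.ne'
      obtain ⟨d, hd, e2⟩ := canon_spec h (col (mulCode c v) 0)
      rw [e2] at h1
      have h2 := PI_smul h hd h1
      rw [decV_col, decV_mulCode h, ← hr] at h2
      exact PI_mul h ht h2
    cases hb : Nat.ble 32 (Itab v)
    · exact key _ _ (tau0_mem h) (rep_tau0 h) (by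
        rw [stepI, forceN_eq, forceN_eq, canonF_eq, hb]; rfl)
    · exact key _ _ (tau1_mem h) (rep_tau1 h) (by
        rw [stepI, forceN_eq, forceN_eq, canonF_eq, hb]; rfl)

theorem exists_code [Fintype F] (h : Hyp ω) (hF : Fintype.card F = 4) (x : F9 → F) :
    ∃ v < 2 ^ 18, decV ω v = x := by
  classical
  let f : Fin (2 ^ 18) → (F9 → F) := fun i => decV ω i
  have hf : Function.Injective f := fun a b e => Fin.ext (decV_injective h a.2 b.2 e)
  have h9 : Fintype.card F9 = 9 := by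
    show Fintype.card (ZMod 3 × ZMod 3) = 9
    rw [Fintype.card_prod, ZMod.card]
  have hc : Fintype.card (Fin (2 ^ 18)) = Fintype.card (F9 → F) := by
    rw [Fintype.card_fin, Fintype.card_fun, hF, h9]
    norm_num
  obtain ⟨i, hi⟩ := ((Fintype.bijective_iff_injective_and_card f).2 ⟨hf, hc⟩).2 x
  exact ⟨i, i.2, hi⟩

theorem PI_of_iso [Fintype F] (h : Hyp ω) (hF : Fintype.card F = 4) (x : F9 → F) (hx : x ≠ 0)
    (hi : ∑ z, (x z) ^ 3 = 0) : PI h x := by
  obtain ⟨v, hv, rfl⟩ := exists_code h hF x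
  obtain ⟨d, hd, e⟩ := canon_spec h v
  apply PI_smul h hd
  rw [← e]
  apply PI_good h _ (canon_lt hv) (canon_canon h hv)
  · rw [par9_eq_zero_iff h _ (canon_lt hv), e]
    simp only [Pi.smul_apply, smul_eq_mul, mul_pow]
    rw [← Finset.mul_sum, hi, mul_zero]
  · intro h0
    rw [h0, decV_zero] at e
    exact hx ((smul_eq_zero.1 e.symm).resolve_left hd)

theorem iso_transitive [Fintype F] (h : Hyp ω) (hF : Fintype.card F = 4) (v w : F9 → F)
    (hv : v ≠ 0) (hw : w ≠ 0) (iv : ∑ z, (v z) ^ 3 = 0) (iw : ∑ z, (w z) ^ 3 = 0) :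
    ∃ g ∈ KK h, ∃ c : F, c ≠ 0 ∧ (g : Matrix F9 F9 F).mulVec v = c • w := by
  obtain ⟨g1, hg1, c1, hc1, e1⟩ := PI_of_iso h hF v hv iv
  obtain ⟨g2, hg2, c2, hc2, e2⟩ := PI_of_iso h hF w hw iw
  refine ⟨g2⁻¹ * g1, Subgroup.mul_mem _ (Subgroup.inv_mem _ hg2) hg1, c1 * c2⁻¹,
    mul_ne_zero hc1 (inv_ne_zero hc2), ?_⟩
  have e3 : decV ω 5 = c2⁻¹ • (g2 : Matrix F9 F9 F).mulVec w := by
    rw [e2, smul_smul, inv_mul_cancel₀ hc2, one_smul]
  rw [Units.val_mul, ← Matrix.mulVec_mulVec, e1, e3, Matrix.mulVec_smul, Matrix.mulVec_smul,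
    Matrix.mulVec_mulVec, ← Units.val_mul, inv_mul_cancel, Units.val_one, Matrix.one_mulVec,
    smul_smul]

theorem ncard_lines [Finite F] (h : Hyp4 ω) :
    {L : Submodule F (F9 → F) | ∃ g ∈ KK h.toHyp,
      L = Submodule.span F {(g : Matrix F9 F9 F).mulVec (Pi.single (0 : F9) (1 : F))}}.ncard
      = 23256 := by
  have hh := h.toHyp
  let f : Fin NN → Submodule F (F9 → F) := fun i => Submodule.span F {decV ω (col (Utab i) 0)}
  have hf : Function.Injective f := by
    intro i j e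
    obtain ⟨z, hz⟩ := (Submodule.span_singleton_eq_span_singleton).1 e
    apply Fin.ext
    apply index_eq_of_smul h i.2 j.2 (c := (z : F)) (d := 1) z.ne_zero one_ne_zero
    rw [one_smul, ← hz]
    rfl
  have hS : {L : Submodule F (F9 → F) | ∃ g ∈ KK h.toHyp,
      L = Submodule.span F {(g : Matrix F9 F9 F).mulVec (Pi.single (0 : F9) (1 : F))}}
      = Set.range f := by
    ext L
    constructor
    · rintro ⟨g, hg, rfl⟩
      obtain ⟨i, hi, a, ha, rfl⟩ := mem_KK hh hg
      obtain ⟨c, hc, e⟩ := UW_e0 hh hi ha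
      refine ⟨⟨i, hi⟩, ?_⟩
      rw [e0] at e
      rw [e, Submodule.span_singleton_smul_eq (IsUnit.mk0 c hc)]
    · rintro ⟨i, rfl⟩
      refine ⟨Uel hh i, Uel_mem hh i.2, ?_⟩
      rw [rep_Uel hh i.2, decM_mulVec_single, ← decV_col]
  rw [hS, Set.ncard_eq_toFinset_card', Set.toFinset_range, Finset.card_image_of_injective _ hf]
  rw [Finset.card_univ, Fintype.card_fin]
  rfl

end

end Cfsg.Agent.Lib.Helper56.J3
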