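import Mathlib
import Cfsg.Prelude.Def_Classical
import Cfsg.Agent.Lib.Helper56.J3Final

/-!
The triple cover of the third Janko group consists of unitary matrices of determinant 1 (helper56).
-/

set_option autoImplicit false
set_option linter.unusedSectionVars false

namespace Cfsg.Agent.Lib.Helper56.J3

open Cfsg.Spor

def conj4 (n : ℕ) : ℕ := if n = 2 then 3 else if n = 3 then 2 else n

def IsConjT (c c' : ℕ) : Prop :=
  ∀ w z : F9, (c' >>> (18 * idx z + 2 * idx w)) % 4 = conj4 ((c >>> (18 * idx w + 2 * idx z)) % 4)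

instance (c c' : ℕ) : Decidable (IsConjT c c') := by unfold IsConjT; infer_instance

theorem conjT_chk : IsConjT (cD (0, 2)) cD02i ∧ IsConjT (cD (1, 2)) cD12i ∧
    IsConjT (cC (1, 0)) (cC (1, 0)) ∧ IsConjT (cC (0, 1)) (cC (0, 1)) := by
  decide +kernel

section
variable {F : Type*} [Field F] [Finite F] {ω : F}

theorem dec4_conj4 (h : Hyp ω) (n : ℕ) (hn : n < 4) : dec4 ω (conj4 n) = dec4 ω n ^ 2 := by
  interval_cases n
  · simp [conj4, dec4_zero]
  · simp [conj4, dec4_one]
  · simp only [conj4, if_true, dec4_two, dec4_three]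
    rw [pow_two, h.om, add_comm]
  · have e : conj4 3 = 2 := by decide
    rw [e, dec4_two, dec4_three]
    linear_combination (-1 : F) * h.om - (1 + ω) * h.two

/-- the Hermitian form on `F ^ 9` indexed by `F9` -/
def herm9 (u v : F9 → F) : F := ∑ z, u z * (v z) ^ 2

theorem decM_conjT (h : Hyp ω) {c c' : ℕ} (hc : IsConjT c c') (w z : F9) :
    decM ω c' w z = (decM ω c z w) ^ 2 := by
  rw [decM_apply_of ω c' _ w z (hc w z), dec4_conj4 h _ (Nat.mod_lt _ (by norm_num)),
    decM_apply_of ω c _ z w rfl]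

theorem herm9_pres (h : Hyp ω) {c c' : ℕ} (hc : IsConjT c c') (hm : mulCode c' c = IDc)
    (u v : F9 → F) : herm9 ((decM ω c).mulVec u) ((decM ω c).mulVec v) = herm9 u v := by
  have hchar : CharP F 2 := CharTwo.of_one_ne_zero_of_two_eq_zero one_ne_zero (by
    rw [← one_add_one_eq_two]; exact h.two)
  have hone : ∀ a b : F9, ∑ z, (decM ω c z a) * (decM ω c z b) ^ 2 = if a = b then 1 else 0 := by
    intro a b
    have h1 : decM ω c' * decM ω c = 1 := by rw [← decM_mulCode h, hm, decM_IDc]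
    have h2 := congrFun (congrFun h1 b) a
    rw [Matrix.mul_apply, Matrix.one_apply] at h2
    simp only [decM_conjT h hc] at h2
    rw [← (show (if b = a then (1 : F) else 0) = if a = b then 1 else 0 by simp [eq_comm]), ← h2]
    exact Finset.sum_congr rfl (fun z _ => mul_comm _ _)
  unfold herm9
  simp only [Matrix.mulVec, dotProduct, CharTwo.sum_sq, mul_pow, Finset.sum_mul_sum]
  rw [Finset.sum_comm]
  have : ∀ a : F9, ∑ z : F9, ∑ b : F9, decM ω c z a * u a * (decM ω c z b ^ 2 * v b ^ 2)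
      = u a * v a ^ 2 := by
    intro a
    rw [Finset.sum_comm]
    have : ∀ b : F9, ∑ z : F9, decM ω c z a * u a * (decM ω c z b ^ 2 * v b ^ 2)
        = (if a = b then 1 else 0) * (u a * v b ^ 2) := by
      intro b
      rw [← hone a b, Finset.sum_mul]
      exact Finset.sum_congr rfl (fun z _ => by ring)
    simp only [this]
    simp
  simp only [this]

/-- the unitary group on `F ^ 9` indexed by `F9` -/
def GU9 (F : Type*) [Field F] : Subgroup (GL F9 F) :=
  Cfsg.preserving (Units.coeHom (Matrix F9 F9 F)) herm9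

theorem mem_GU9_of (h : Hyp ω) {g : GL F9 F} {c c' : ℕ} (hg : Rep ω g c) (hc : IsConjT c c')
    (hm : mulCode c' c = IDc) : g ∈ GU9 F := by
  intro u v
  show herm9 ((g : Matrix F9 F9 F).mulVec u) ((g : Matrix F9 F9 F).mulVec v) = herm9 u v
  rw [hg]
  exact herm9_pres h hc hm u v

theorem KK_le_GU9 (h : Hyp ω) : KK h ≤ GU9 F := by
  have h1 : gD02 h ∈ GU9 F := mem_GU9_of h (rep_mkGL h _ _ _ _) conjT_chk.1 words_chk.2.2.2.1
  have h2 : gD12 h ∈ GU9 F :=
    mem_GU9_of h (rep_mkGL h _ _ _ _) conjT_chk.2.1 words_chk.2.2.2.2.2.1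
  have h3 : gC10 h ∈ GU9 F :=
    mem_GU9_of h (rep_mkGL h _ _ _ _) conjT_chk.2.2.1 words_chk.2.2.2.2.2.2.1
  have h4 : gC01 h ∈ GU9 F :=
    mem_GU9_of h (rep_mkGL h _ _ _ _) conjT_chk.2.2.2 words_chk.2.2.2.2.2.2.2
  have h0 : tau0 h ∈ GU9 F := Subgroup.mul_mem _ (Subgroup.mul_mem _ h1 h2) h3
  rw [KK, Subgroup.closure_le]
  rintro x (rfl | rfl)
  · exact h0
  · exact Subgroup.mul_mem _ (Subgroup.mul_mem _ h4 h0) h4

theorem units_cube (h : Hyp4 ω) (x : Fˣ) : x ^ 3 = 1 := by
  apply Units.ext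
  rw [Units.val_pow_eq_pow_val, Units.val_one]
  have h1 := h.toHyp.om
  have h2 := h.toHyp.two
  rcases h.all (x : F) with e | e | e | e
  · exact absurd e x.ne_zero
  · rw [e, one_pow]
  · rw [e]; exact om_cube h.toHyp
  · rw [e]
    linear_combination (ω + 4) * h1 + (4 * ω + 2) * h2

theorem det_eq_one (h : Hyp4 ω) : KK h.toHyp ≤ (Matrix.GeneralLinearGroup.det (n := F9) (R := F)).ker := by
  have hh := h.toHyp
  have h0 : tau0 hh ∈ (Matrix.GeneralLinearGroup.det (n := F9) (R := F)).ker := by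
    rw [MonoidHom.mem_ker]
    set d := Matrix.GeneralLinearGroup.det (tau0 hh) with hd
    have h19 : d ^ 19 = 1 := by rw [hd, ← map_pow, tau0_pow, map_one]
    have h3 : d ^ 3 = 1 := units_cube h d
    calc d = d ^ 19 * ((d ^ 3) ^ 6)⁻¹ := by rw [← pow_mul]; group
      _ = 1 := by rw [h19, h3]; simp
  rw [KK, Subgroup.closure_le]
  rintro x (rfl | rfl)
  · exact h0
  · rw [MonoidHom.mem_ker] at h0
    show tau1 hh ∈ (Matrix.GeneralLinearGroup.det (n := F9) (R := F)).ker
    rw [MonoidHom.mem_ker, tau1, map_mul, map_mul, h0, mul_one, ← map_mul, gC01_mul_self, map_one]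

end

end Cfsg.Agent.Lib.Helper56.J3
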