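import Mathlib
import Cfsg.Prelude.Def_KGroupFacts
import Cfsg.Agent.Lib.Helper56.TCGen
import Cfsg.Agent.Lib.Helper66.Hopf

/-!
Abstract lemmas on central extensions used for the Schur multiplier of `J₃` (helper56).
-/

set_option autoImplicit false

namespace Cfsg.Agent.Lib.Helper56.TC

open Subgroup

section
variable {Γ K : Type*} [Group Γ] [Group K] (τ : Γ →* K)

/-- lifts of generators generate a stem extension -/
theorem closure_eq_top_of_stem (hτ : Cfsg.IsStemExtension τ) (S : Set Γ)
    (h : closure (τ '' S) = ⊤) : closure S = ⊤ := by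
  set H := closure S with hH
  have hmap : H.map τ = ⊤ := by rw [hH, MonoidHom.map_closure, h]
  have hex : ∀ x : Γ, ∃ y ∈ H, τ y = τ x := by
    intro x
    have : τ x ∈ H.map τ := by rw [hmap]; exact mem_top _
    obtain ⟨y, hy, e⟩ := this
    exact ⟨y, hy, e⟩
  have hcomm : commutator Γ ≤ H := by
    rw [commutator_def, Subgroup.commutator_le]
    intro x _ y _
    obtain ⟨x', hx', ex⟩ := hex x
    obtain ⟨y', hy', ey⟩ := hex y
    rw [Cfsg.Agent.Lib.Helper66.commutatorElement_eq_of_central τ hτ.2.1 ex.symm ey.symm]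
    exact H.commutator_mem_commutator hx' hy' |> fun h => by
      rw [commutatorElement_def]
      exact H.mul_mem (H.mul_mem (H.mul_mem hx' hy') (H.inv_mem hx')) (H.inv_mem hy')
  rw [eq_top_iff]
  intro x _
  obtain ⟨y, hy, e⟩ := hex x
  have hk : y⁻¹ * x ∈ τ.ker := by rw [MonoidHom.mem_ker, map_mul, map_inv, e, inv_mul_cancel]
  have : x = y * (y⁻¹ * x) := by group
  rw [this]
  exact H.mul_mem hy (hcomm (hτ.2.2 hk))

variable (hc : τ.ker ≤ center Γ)
include hc

theorem comm_of_ker {a : Γ} (ha : τ a = 1) (g : Γ) : a * g = g * a :=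
  ((mem_center_iff.1 (hc ha)) g).symm

section odd
variable (hodd : ∀ a : Γ, τ a = 1 → a * a = 1 → a = 1)
include hodd

theorem dihedral {X Y : Γ} (hX : X * X = 1) (hY : Y * Y = 1) (m : ℕ) (h : τ ((X * Y) ^ m) = 1) :
    (X * Y) ^ m = 1 := by
  set a := (X * Y) ^ m with ha
  have eX : X⁻¹ = X := inv_eq_of_mul_eq_one_right hX
  have eY : Y⁻¹ = Y := inv_eq_of_mul_eq_one_right hY
  have h1 : X * a * X⁻¹ = a⁻¹ := by
    rw [ha, ← conj_pow, ← inv_pow]
    congr 1
    rw [mul_inv_rev, eX, eY]
    calc X * (X * Y) * X = (X * X) * Y * X := by group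
      _ = Y * X := by rw [hX, one_mul]
  have h2 : X * a * X⁻¹ = a := by
    rw [← comm_of_ker τ hc h X, mul_inv_cancel_right]
  apply hodd a h
  rw [h2] at h1
  calc a * a = a * a⁻¹ := by rw [← h1]
    _ = 1 := mul_inv_cancel a

theorem mid {X Y Z : Γ} (hX : X * X = 1) (hY : Y * Y = 1) (hZ : Z * Z = 1) (k : ℕ)
    (h : τ ((X * Y) ^ k * Z) = 1) : (X * Y) ^ k * Z = 1 := by
  set b := (X * Y) ^ k with hb
  have h1 : τ b = τ Z := by
    rw [map_mul] at h
    have : τ Z * τ Z = 1 := by rw [← map_mul, hZ, map_one]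
    rw [eq_inv_of_mul_eq_one_left h, inv_eq_of_mul_eq_one_right this]
  have h2 : b * b = 1 := by
    have : b * b = (X * Y) ^ (k + k) := by rw [hb, pow_add]
    rw [this]
    apply dihedral τ hc hodd hX hY
    rw [pow_add, ← hb, map_mul, h1, ← map_mul, hZ, map_one]
  set c := b * Z with hcdef
  apply hodd c h
  have h3 : Z = b * c := by rw [hcdef, ← mul_assoc, h2, one_mul]
  have h4 : Z * Z = (b * b) * (c * c) := by
    conv_lhs => rw [h3]
    calc b * c * (b * c) = b * (c * b) * c := by group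
      _ = b * (b * c) * c := by rw [comm_of_ker τ hc h b]
      _ = _ := by group
  rw [hZ, h2, one_mul] at h4
  exact h4.symm

end odd

end

/-! ### words -/

/-- the word of a conjugate of a generator -/
def cwl (l : ℕ) (g : List ℕ) : List ℕ := g.reverse ++ l :: g

def relD (i j : ℕ) (h : List ℕ) (m : ℕ) : List ℕ := rep m (i :: cwl j h)

def relM (i j : ℕ) (h : List ℕ) (m l : ℕ) (g : List ℕ) : List ℕ := rep m (i :: cwl j h) ++ cwl l g

section
variable {Γ K : Type*} [Group Γ] [Group K] (τ : Γ →* K) (hc : τ.ker ≤ center Γ)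
  (hodd : ∀ a : Γ, τ a = 1 → a * a = 1 → a = 1) (y : ℕ → Γ) (hy : ∀ i, y i * y i = 1)
include hy

theorem ev_cwl_sq (l : ℕ) (g : List ℕ) : ev y (cwl l g) * ev y (cwl l g) = 1 := by
  rw [cwl, ev_append, ev_reverse y hy, ev_cons]
  calc (ev y g)⁻¹ * (y l * ev y g) * ((ev y g)⁻¹ * (y l * ev y g))
      = (ev y g)⁻¹ * (y l * y l) * ev y g := by group
    _ = 1 := by rw [hy]; group

include hc hodd

theorem relD_valid (i j : ℕ) (h : List ℕ) (m : ℕ) (e : τ (ev y (relD i j h m)) = 1) :
    ev y (relD i j h m) = 1 := by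
  rw [relD, ev_rep, ev_cons] at e ⊢
  exact dihedral τ hc hodd (hy i) (ev_cwl_sq y hy j h) m e

theorem relM_valid (i j : ℕ) (h : List ℕ) (m l : ℕ) (g : List ℕ)
    (e : τ (ev y (relM i j h m l g)) = 1) : ev y (relM i j h m l g) = 1 := by
  rw [relM, ev_append, ev_rep, ev_cons] at e ⊢
  exact mid τ hc hodd (hy i) (ev_cwl_sq y hy j h) (ev_cwl_sq y hy l g) m e

end

/-- changing one generator by a central element -/
theorem ev_update {Γ : Type*} [Group Γ] (Y : ℕ → Γ) (j : ℕ) (a : Γ) (ha : ∀ g, a * g = g * a)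
    (w : List ℕ) : ev (Function.update Y j (Y j * a)) w = ev Y w * a ^ (w.count j) := by
  induction w with
  | nil => simp [ev]
  | cons i w ih =>
    rw [ev_cons, ev_cons, ih]
    by_cases hij : i = j
    · subst hij
      rw [Function.update_self, List.count_cons_self, pow_succ]
      calc Y i * a * (ev Y w * a ^ List.count i w) = Y i * (a * ev Y w) * a ^ List.count i w := by
            group
        _ = Y i * (ev Y w * a) * a ^ List.count i w := by rw [ha]
        _ = Y i * ev Y w * (a * a ^ List.count i w) := by group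
        _ = _ := by rw [← pow_succ', pow_succ]
    · rw [Function.update_of_ne hij, List.count_cons_of_ne (fun h => hij h), mul_assoc]

end Cfsg.Agent.Lib.Helper56.TC
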