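import Mathlib
import Cfsg.Agent.Lib.Helper56.TCGen
import Cfsg.Agent.Lib.Helper56.MultDataC

set_option autoImplicit false

namespace Cfsg.Agent.Lib.Helper56.J3

open Cfsg.Agent.Lib.Helper56.TC

def MCchk (e : ℕ) : Bool := chkE MCtab MCjus MCpar MCrel 1920 3 0 e

theorem MCchk_0 : allB MCchk 13 (2 ^ 13 * 0) = true := by decide +kernel

theorem MCchk_all : ∀ e < 4 * 1920, chkE MCtab MCjus MCpar MCrel 1920 3 0 e = true := by
  intro e he
  exact forall_of_blocks MCchk 13 1 (by
    intro b hb
    interval_cases b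
    · exact MCchk_0
    ) e (by norm_num at he ⊢; omega)

end Cfsg.Agent.Lib.Helper56.J3
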