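import Mathlib
import Cfsg.Agent.Lib.Helper56.TCGen
import Cfsg.Agent.Lib.Helper56.MultDataK

set_option autoImplicit false

namespace Cfsg.Agent.Lib.Helper56.J3

open Cfsg.Agent.Lib.Helper56.TC

def MKchk (e : ℕ) : Bool := chkE MKtab MKjus MKpar MKrel 18468 4 3 e

theorem MKchk_0 : allB MKchk 13 (2 ^ 13 * 0) = true := by decide +kernel
theorem MKchk_1 : allB MKchk 13 (2 ^ 13 * 1) = true := by decide +kernel
theorem MKchk_2 : allB MKchk 13 (2 ^ 13 * 2) = true := by decide +kernel
theorem MKchk_3 : allB MKchk 13 (2 ^ 13 * 3) = true := by decide +kernel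
theorem MKchk_4 : allB MKchk 13 (2 ^ 13 * 4) = true := by decide +kernel
theorem MKchk_5 : allB MKchk 13 (2 ^ 13 * 5) = true := by decide +kernel
theorem MKchk_6 : allB MKchk 13 (2 ^ 13 * 6) = true := by decide +kernel
theorem MKchk_7 : allB MKchk 13 (2 ^ 13 * 7) = true := by decide +kernel
theorem MKchk_8 : allB MKchk 13 (2 ^ 13 * 8) = true := by decide +kernel
theorem MKchk_9 : allB MKchk 13 (2 ^ 13 * 9) = true := by decide +kernel

theorem MKchk_all : ∀ e < 4 * 18468, chkE MKtab MKjus MKpar MKrel 18468 4 3 e = true := by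
  intro e he
  exact forall_of_blocks MKchk 13 10 (by
    intro b hb
    interval_cases b
    · exact MKchk_0
    · exact MKchk_1
    · exact MKchk_2
    · exact MKchk_3
    · exact MKchk_4
    · exact MKchk_5
    · exact MKchk_6
    · exact MKchk_7
    · exact MKchk_8
    · exact MKchk_9
    ) e (by norm_num at he ⊢; omega)

end Cfsg.Agent.Lib.Helper56.J3
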