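import Mathlib
import Cfsg.Agent.Lib.Helper56.TCGen
import Cfsg.Agent.Lib.Helper56.MultDataL

set_option autoImplicit false

namespace Cfsg.Agent.Lib.Helper56.J3

open Cfsg.Agent.Lib.Helper56.TC

def MLchk (e : ℕ) : Bool := chkE MLtab MLjus MLpar MLrel 8160 3 0 e

theorem MLchk_0 : allB MLchk 13 (2 ^ 13 * 0) = true := by decide +kernel
theorem MLchk_1 : allB MLchk 13 (2 ^ 13 * 1) = true := by decide +kernel
theorem MLchk_2 : allB MLchk 13 (2 ^ 13 * 2) = true := by decide +kernel
theorem MLchk_3 : allB MLchk 13 (2 ^ 13 * 3) = true := by decide +kernel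

theorem MLchk_all : ∀ e < 4 * 8160, chkE MLtab MLjus MLpar MLrel 8160 3 0 e = true := by
  intro e he
  exact forall_of_blocks MLchk 13 4 (by
    intro b hb
    interval_cases b
    · exact MLchk_0
    · exact MLchk_1
    · exact MLchk_2
    · exact MLchk_3
    ) e (by norm_num at he ⊢; omega)

end Cfsg.Agent.Lib.Helper56.J3
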