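import Mathlib
import Cfsg.Agent.Lib.Helper56.MultAbs
import Cfsg.Agent.Lib.Helper56.MultChkK
import Cfsg.Agent.Lib.Helper56.MultChkL
import Cfsg.Agent.Lib.Helper56.J3InvMain

/-!
Stem extensions of `3·J₃` with kernel of odd exponent are trivial (helper56).
-/

set_option autoImplicit false

namespace Cfsg.Agent.Lib.Helper56.J3

open Cfsg.Agent.Lib.Helper56.TC Subgroup

/-- codes of four involutions generating `3·J₃`; the first three generate `L₂(16):2` -/
def gcM (i : ℕ) : ℕ :=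
  match i with
  | 0 => 46097034122333218270229956718245640291079041536
  | 1 => 268859517830898628769155469812252212818726401001
  | 2 => 244039334254628311431552258459054843546875903705
  | 3 => 3013004543482108530787162966666183646268025872
  | _ => IDc

def gsM (i : ℕ) : ℕ :=
  match i with
  | 0 => 66529217
  | 1 => 31774426
  | 2 => 106581741
  | _ => 132461442

/-- the code of a word -/
def cwd : List ℕ → ℕ
  | [] => IDc
  | i :: w => mulCode (gcM i) (cwd w)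

def wT0 : List ℕ := [1, 0, 2, 0, 1, 0, 1, 0, 1, 0, 1, 0, 1, 2, 0, 1, 3, 1, 2, 0, 3, 1, 3, 1, 3, 1, 0, 1, 2]
def wT1 : List ℕ := [0, 1, 0, 1, 0, 2, 0, 1, 2, 0, 1, 0, 1, 0, 1, 0, 1, 0, 1, 0, 1, 3, 1, 3, 1, 2, 3, 0, 1, 3, 1, 0, 3]

theorem gcM_chk : (∀ i < 4, siftOK (gsM i) (gcM i) = true) ∧ (∀ i < 4, mulCode (gcM i) (gcM i) = IDc) ∧
    mulCode IDc IDc = IDc ∧ cwd wT0 = t0c ∧ cwd wT1 = t1c := by decide +kernel

theorem MKrel_0_cwd : cwd MKrel_0 = IDc := by decide +kernel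
theorem MKrel_1_cwd : cwd MKrel_1 = IDc := by decide +kernel
theorem MKrel_2_cwd : cwd MKrel_2 = IDc := by decide +kernel
theorem MKrel_3_cwd : cwd MKrel_3 = IDc := by decide +kernel
theorem MKrel_4_eq : MKrel_4 = relM 0 2 [] 2 0 [3] := by decide +kernel
theorem MKrel_4_cwd : cwd MKrel_4 = IDc := by decide +kernel
theorem MKrel_5_eq : MKrel_5 = relD 2 3 [2, 3, 1] 1 := by decide +kernel
theorem MKrel_5_cwd : cwd MKrel_5 = IDc := by decide +kernel
theorem MKrel_6_eq : MKrel_6 = relM 1 2 [] 1 0 [1, 3, 2, 0, 1, 3] := by decide +kernel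
theorem MKrel_6_cwd : cwd MKrel_6 = IDc := by decide +kernel
theorem MKrel_7_eq : MKrel_7 = relM 3 1 [3, 2] 1 0 [1, 0, 3, 0, 1] := by decide +kernel
theorem MKrel_7_cwd : cwd MKrel_7 = IDc := by decide +kernel
theorem MKrel_8_eq : MKrel_8 = relM 1 3 [] 5 1 [3, 0, 1, 2, 0, 1, 2, 0] := by decide +kernel
theorem MKrel_8_cwd : cwd MKrel_8 = IDc := by decide +kernel
theorem MKrel_9_eq : MKrel_9 = relM 2 1 [3, 1, 0] 2 0 [1, 3, 1, 3, 1, 3, 0, 1, 3] := by decide +kernel
theorem MKrel_9_cwd : cwd MKrel_9 = IDc := by decide +kernel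
theorem MKrel_10_eq : MKrel_10 = relM 0 2 [0, 1, 0, 1] 2 0 [1, 0, 1, 2, 0, 1, 2, 3, 2] := by decide +kernel
theorem MKrel_10_cwd : cwd MKrel_10 = IDc := by decide +kernel
theorem MLrel_0_cwd : cwd MLrel_0 = IDc := by decide +kernel
theorem MLrel_1_cwd : cwd MLrel_1 = IDc := by decide +kernel
theorem MLrel_2_cwd : cwd MLrel_2 = IDc := by decide +kernel
theorem MLrel_3_eq : MLrel_3 = relD 1 2 [] 2 := by decide +kernel
theorem MLrel_3_cwd : cwd MLrel_3 = IDc := by decide +kernel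
theorem MLrel_4_eq : MLrel_4 = relD 0 2 [] 4 := by decide +kernel
theorem MLrel_4_cwd : cwd MLrel_4 = IDc := by decide +kernel
theorem MLrel_5_eq : MLrel_5 = relM 0 2 [1, 0, 2, 0, 1] 2 1 [0, 2, 0, 1, 0, 2, 0, 1] := by decide +kernel
theorem MLrel_5_cwd : cwd MLrel_5 = IDc := by decide +kernel
theorem MLrel_6_eq : MLrel_6 = relM 0 2 [0, 1, 0, 1, 2] 2 1 [0, 2, 0, 1, 0, 1, 0, 1, 2] := by decide +kernel
theorem MLrel_6_cwd : cwd MLrel_6 = IDc := by decide +kernel
theorem MLrel_7_eq : MLrel_7 = relM 2 0 [1, 0] 5 2 [0, 1, 0, 2, 0, 1] := by decide +kernel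
theorem MLrel_7_cwd : cwd MLrel_7 = IDc := by decide +kernel

section
variable {F : Type*} [Field F] [Finite F] {ω : F}

theorem gcM_of_le {i : ℕ} (hi : 4 ≤ i) : gcM i = IDc := by
  obtain ⟨j, rfl⟩ : ∃ j, i = j + 4 := ⟨i - 4, by omega⟩
  rfl

theorem isK_gcM (h : Hyp ω) (i : ℕ) : IsK h (gcM i) := by
  by_cases hi : i < 4
  · exact exists_of_sift h (gcM_chk.1 i hi)
  · rw [gcM_of_le (by omega)]
    exact ⟨1, one_mem _, Rep.one⟩

/-- the four involutions -/
noncomputable def uM (h : Hyp ω) (i : ℕ) : KK h := EK h (gcM i)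

theorem uM_sq (h : Hyp ω) (i : ℕ) : uM h i * uM h i = 1 := by
  have e : mulCode (gcM i) (gcM i) = IDc := by
    by_cases hi : i < 4
    · exact gcM_chk.2.1 i hi
    · rw [gcM_of_le (by omega)]
      exact gcM_chk.2.2.1
  rw [uM, EK_mul h (isK_gcM h i) (isK_gcM h i) e, EK_one]

theorem isK_cwd (h : Hyp ω) (w : List ℕ) : IsK h (cwd w) := by
  induction w with
  | nil => exact ⟨1, one_mem _, Rep.one⟩
  | cons i w ih => exact (isK_gcM h i).mul ih

theorem ev_uM (h : Hyp ω) (w : List ℕ) : ev (uM h) w = EK h (cwd w) := by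
  induction w with
  | nil => exact (EK_one h).symm
  | cons i w ih => rw [ev_cons, ih, uM, EK_mul h (isK_gcM h i) (isK_cwd h w) rfl]; rfl

theorem ev_uM_eq_one (h : Hyp ω) {w : List ℕ} (e : cwd w = IDc) : ev (uM h) w = 1 := by
  rw [ev_uM, e, EK_one]

theorem closure_uM (h : Hyp ω) : closure (uM h '' {i | i < 4}) = ⊤ := by
  set S := closure (uM h '' {i | i < 4}) with hS
  have h0 : (⟨tau0 h, tau0_mem h⟩ : KK h) ∈ S := by
    have e : ev (uM h) wT0 = ⟨tau0 h, tau0_mem h⟩ := by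
      rw [ev_uM, gcM_chk.2.2.2.1]
      exact EK_eq h (rep_tau0 h)
    rw [← e]
    exact ev_mem_closure _ 4 _ (by decide)
  have h1 : (⟨tau1 h, tau1_mem h⟩ : KK h) ∈ S := by
    have e : ev (uM h) wT1 = ⟨tau1 h, tau1_mem h⟩ := by
      rw [ev_uM, gcM_chk.2.2.2.2]
      exact EK_eq h (rep_tau1 h)
    rw [← e]
    exact ev_mem_closure _ 4 _ (by decide)
  have key : ∀ x (hx : x ∈ Subgroup.closure {tau0 h, tau1 h}), (⟨x, hx⟩ : KK h) ∈ S := by
    intro x hx
    induction hx using Subgroup.closure_induction with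
    | mem x hx =>
      rcases hx with rfl | rfl
      · exact h0
      · exact h1
    | one => exact S.one_mem
    | mul x y hx hy ihx ihy => exact S.mul_mem ihx ihy
    | inv x hx ih => exact S.inv_mem ih
  rw [eq_top_iff]
  rintro ⟨x, hx⟩ -
  exact key x hx

theorem ker_eq_bot_odd (h : Hyp4 ω) {Γ : Type*} [Group Γ] [Finite Γ] (σ : Γ →* KK h.toHyp)
    (hσ : Cfsg.IsStemExtension σ) {p : ℕ} (hp : p.Prime) (hp2 : p ≠ 2)
    (hexp : ∀ x ∈ σ.ker, x ^ p = 1) : σ.ker = ⊥ := by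
  have hh := h.toHyp
  have hc := hσ.2.1
  have hodd : ∀ a : Γ, σ a = 1 → a * a = 1 → a = 1 := by
    intro a ha h2
    have h1 := hexp a ha
    have h3 : a ^ Nat.gcd p 2 = 1 := by
      rw [pow_gcd_eq_one]; exact ⟨h1, by rw [pow_two]; exact h2⟩
    have hg : Nat.gcd p 2 = 1 := (Nat.coprime_primes hp Nat.prime_two).2 hp2
    rwa [hg, pow_one] at h3
  have hl : ∀ i, ∃ Y : Γ, σ Y = uM hh i ∧ Y * Y = 1 := by
    intro i
    obtain ⟨Y0, hY0⟩ := hσ.1 (uM hh i)
    have ha : σ (Y0 * Y0) = 1 := by rw [map_mul, hY0, uM_sq]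
    obtain ⟨k, hk⟩ := hp.odd_of_ne_two hp2
    refine ⟨Y0 * (Y0 * Y0) ^ k, by rw [map_mul, map_pow, ha, one_pow, mul_one, hY0], ?_⟩
    have h1 := hexp _ ha
    have e : Y0 * (Y0 * Y0) ^ k = Y0 ^ (2 * k + 1) := by
      rw [← pow_two, ← pow_mul, pow_succ']
    calc Y0 * (Y0 * Y0) ^ k * (Y0 * (Y0 * Y0) ^ k) = (Y0 * Y0) ^ (2 * k + 1) := by
          rw [e, ← pow_two Y0, ← pow_mul, ← pow_add]
          congr 1
          ring
      _ = 1 := by rw [← hk, h1]
  choose y hy1 hy2 using hl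
  have hfun : (fun i => σ (y i)) = uM hh := funext hy1
  have val : ∀ w, cwd w = IDc → σ (ev y w) = 1 := by
    intro w e
    rw [map_ev, hfun]
    exact ev_uM_eq_one hh e
  have sq : ∀ i, ev y [i, i] = 1 := by
    intro i
    rw [ev_cons, ev_cons, ev_nil, mul_one, hy2]
  have hrelK : ∀ r, ev y (MKrel r) = 1 := by
    intro r
    unfold MKrel
    split
    · exact sq 0
    · exact sq 1
    · exact sq 2
    · exact sq 3
    · rw [MKrel_4_eq]; apply relM_valid σ hc hodd y hy2; rw [← MKrel_4_eq]; exact val _ MKrel_4_cwd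
    · rw [MKrel_5_eq]; apply relD_valid σ hc hodd y hy2; rw [← MKrel_5_eq]; exact val _ MKrel_5_cwd
    · rw [MKrel_6_eq]; apply relM_valid σ hc hodd y hy2; rw [← MKrel_6_eq]; exact val _ MKrel_6_cwd
    · rw [MKrel_7_eq]; apply relM_valid σ hc hodd y hy2; rw [← MKrel_7_eq]; exact val _ MKrel_7_cwd
    · rw [MKrel_8_eq]; apply relM_valid σ hc hodd y hy2; rw [← MKrel_8_eq]; exact val _ MKrel_8_cwd
    · rw [MKrel_9_eq]; apply relM_valid σ hc hodd y hy2; rw [← MKrel_9_eq]; exact val _ MKrel_9_cwd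
    · rw [MKrel_10_eq]; apply relM_valid σ hc hodd y hy2; rw [← MKrel_10_eq]
      exact val _ MKrel_10_cwd
    · rfl
  have hrelL : ∀ r, ev y (MLrel r) = 1 := by
    intro r
    unfold MLrel
    split
    · exact sq 0
    · exact sq 1
    · exact sq 2
    · rw [MLrel_3_eq]; apply relD_valid σ hc hodd y hy2; rw [← MLrel_3_eq]; exact val _ MLrel_3_cwd
    · rw [MLrel_4_eq]; apply relD_valid σ hc hodd y hy2; rw [← MLrel_4_eq]; exact val _ MLrel_4_cwd
    · rw [MLrel_5_eq]; apply relM_valid σ hc hodd y hy2; rw [← MLrel_5_eq]; exact val _ MLrel_5_cwd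
    · rw [MLrel_6_eq]; apply relM_valid σ hc hodd y hy2; rw [← MLrel_6_eq]; exact val _ MLrel_6_cwd
    · rw [MLrel_7_eq]; apply relM_valid σ hc hodd y hy2; rw [← MLrel_7_eq]; exact val _ MLrel_7_cwd
    · rfl
  have c1 := card_closure_le y (closure (y '' {i | i < 3})) MKtab MKjus MKpar MKrel 18468 4 3 hy2
    (le_refl _) (by norm_num) (by norm_num) hrelK (fun i hi => subset_closure ⟨i, hi, rfl⟩) MKchk_all
  have c2 := card_closure_le y ⊥ MLtab MLjus MLpar MLrel 8160 3 0 hy2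
    (by norm_num) (by norm_num) (by norm_num) hrelL (fun i hi => absurd hi (Nat.not_lt_zero _))
    MLchk_all
  have top : closure (y '' {i | i < 4}) = ⊤ := by
    apply closure_eq_top_of_stem σ hσ
    rw [← Set.image_comp]
    have : (σ ∘ y) = uM hh := funext hy1
    rw [this]
    exact closure_uM hh
  rw [top, Subgroup.card_top] at c1
  rw [Subgroup.card_bot, one_mul] at c2
  have c3 : Nat.card Γ ≤ 150698880 := by
    calc Nat.card Γ ≤ Nat.card (closure (y '' {i | i < 3})) * 18468 := c1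
      _ ≤ 8160 * 18468 := Nat.mul_le_mul_right _ c2
      _ = 150698880 := by norm_num
  have c4 := Subgroup.card_mul_index σ.ker
  rw [Subgroup.index_ker, MonoidHom.range_eq_top.2 hσ.1, Subgroup.card_top, card_KK h] at c4
  apply Subgroup.eq_bot_of_card_le
  rw [← c4] at c3
  omega

end

end Cfsg.Agent.Lib.Helper56.J3
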