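import Mathlib
import Cfsg.Agent.Lib.Helper56.MultAbs
import Cfsg.Agent.Lib.Helper56.MultChkC
import Cfsg.Agent.Lib.Helper56.J3InvMain
import Cfsg.Agent.Lib.Helper7.Stem6

/-!
Stem extensions of `3·J₃` with kernel of exponent 2 are trivial (helper56).
-/

set_option autoImplicit false

namespace Cfsg.Agent.Lib.Helper56.J3

open Cfsg.Agent.Lib.Helper56.TC Subgroup

/-- multiplication of the indices `60 * i + a` of the elements `q i * h a` -/
def mulI (x y : ℕ) : ℕ := 60 * mQ (x / 60) (actT (x % 60) (y / 60)) + mH (x % 60) (y % 60)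

def gI (i : ℕ) : ℕ :=
  match i with
  | 0 => 1694
  | 1 => 1287
  | 2 => 515
  | _ => 0

def evI : List ℕ → ℕ
  | [] => 0
  | i :: w => mulI (gI i) (evI w)

def wC6 : List ℕ := [0, 1, 0, 1, 0, 2, 0, 1, 0, 2]

theorem relC_chk : evI MCrel_3 = 0 ∧ evI MCrel_4 = 0 ∧ evI MCrel_5 = 0 ∧ evI MCrel_6 = 0 ∧
    MCrel_6 = wC6 ++ wC6 ∧ (∀ i < 3, mulI (gI i) (gI i) = 0) ∧ mulI 0 0 = 0 := by decide +kernel

theorem cnt_chk : MCrel_5.count 1 = 7 ∧ MCrel_3.count 2 = 3 ∧ MCrel_5.count 2 = 6 ∧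
    MCrel_4.count 0 = 5 ∧ MCrel_3.count 0 = 0 ∧ MCrel_5.count 0 = 8 := by decide +kernel

def chkTreeC (w : ℕ) : Bool :=
  Nat.blt (MCelt w) 1920 && Nat.beq (MCpos (MCelt w)) w &&
    (Nat.beq w 0 || (Nat.blt (MCpar w >>> 2) w && Nat.blt (MCpar w &&& 3) 3 &&
      Nat.beq (MCelt w) (mulI (MCelt (MCpar w >>> 2)) (gI (MCpar w &&& 3)))))

theorem treeC_chk : (∀ w < 1920, chkTreeC w = true) ∧ MCelt 0 = 0 := by decide +kernel

theorem e8_chk : mulI 60 60 = 0 ∧ mulI 1 1 = 0 ∧ mulI 2 2 = 0 ∧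
    mulI (mulI 60 1) (mulI 60 1) = 0 ∧ mulI (mulI 60 2) (mulI 60 2) = 0 ∧
    mulI (mulI 1 2) (mulI 1 2) = 0 ∧ mulI (mulI 60 (mulI 1 2)) (mulI 60 (mulI 1 2)) = 0 ∧
    mulI 60 1 ≠ 0 ∧ mulI 60 2 ≠ 0 ∧ mulI 1 2 ≠ 0 ∧ mulI 60 (mulI 1 2) ≠ 0 ∧
    mulI 60 1 < 1920 ∧ mulI 60 2 < 1920 ∧ mulI 1 2 < 1920 ∧ mulI 60 (mulI 1 2) < 1920 := by
  decide +kernel

theorem mulI_lt {x y : ℕ} (hx : x < 1920) (hy : y < 1920) : mulI x y < 1920 := by
  have h1 : x / 60 < 32 := by omega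
  have h2 : x % 60 < 60 := by omega
  have h3 : y / 60 < 32 := by omega
  have h4 : y % 60 < 60 := by omega
  have h5 := mQ_lt _ h1 _ (actT_lt _ h2 _ h3)
  have h6 := mH_lt _ h2 _ h4
  unfold mulI
  omega

theorem gI_lt (i : ℕ) : gI i < 1920 := by
  unfold gI
  split <;> norm_num

theorem evI_lt (w : List ℕ) : evI w < 1920 := by
  induction w with
  | nil => norm_num [evI]
  | cons i w ih => exact mulI_lt (gI_lt i) ih

section
variable {F : Type*} [Field F] [Finite F] {ω : F}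

/-- the elements of the perfect part of the centraliser of an involution -/
noncomputable def EC (h : Hyp ω) (x : ℕ) : KK h := EK h (Qc (x / 60)) * EK h (Hc (x % 60))

theorem EC_mul (h : Hyp ω) {x y : ℕ} (hx : x < 1920) (hy : y < 1920) :
    EC h x * EC h y = EC h (mulI x y) := by
  have h1 : x / 60 < 32 := by omega
  have h2 : x % 60 < 60 := by omega
  have h3 : y / 60 < 32 := by omega
  have h4 : y % 60 < 60 := by omega
  have h6 := mH_lt _ h2 _ h4
  have e1 : mulI x y / 60 = mQ (x / 60) (actT (x % 60) (y / 60)) := by unfold mulI; omega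
  have e2 : mulI x y % 60 = mH (x % 60) (y % 60) := by unfold mulI; omega
  unfold EC
  rw [e1, e2]
  exact (tsd_K h).mul h1 h3 h2 h4

theorem EC_zero (h : Hyp ω) : EC h 0 = 1 := by
  unfold EC
  have := (tsd_K h).q0
  have h' := (tsd_K h).h0
  simp only [Nat.zero_div, Nat.zero_mod] at *
  rw [this, h', one_mul]

theorem EC_inj (h : Hyp ω) {x y : ℕ} (hx : x < 1920) (hy : y < 1920) (e : EC h x = EC h y) :
    x = y := by
  have := (tsd_K h).prod_inj (show x / 60 < 32 by omega) (show y / 60 < 32 by omega)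
    (show x % 60 < 60 by omega) (show y % 60 < 60 by omega) e
  omega

noncomputable def cM (h : Hyp ω) (i : ℕ) : KK h := EC h (gI i)

theorem ev_cM (h : Hyp ω) (w : List ℕ) : ev (cM h) w = EC h (evI w) := by
  induction w with
  | nil => exact (EC_zero h).symm
  | cons i w ih => rw [ev_cons, ih, cM, EC_mul h (gI_lt i) (evI_lt w)]; rfl

theorem cM_sq (h : Hyp ω) (i : ℕ) : cM h i * cM h i = 1 := by
  rw [cM, EC_mul h (gI_lt i) (gI_lt i)]
  by_cases hi : i < 3
  · rw [relC_chk.2.2.2.2.2.1 i hi, EC_zero]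
  · obtain ⟨j, rfl⟩ : ∃ j, i = j + 3 := ⟨i - 3, by omega⟩
    show EC h (mulI 0 0) = 1
    rw [relC_chk.2.2.2.2.2.2, EC_zero]

theorem conj_t (h : Hyp4 ω) (x : KK h.toHyp) (hx : x * x = 1) (hx1 : x ≠ 1) :
    ∃ g, x = g * EK h.toHyp (Qc 1) * g⁻¹ := by
  have hh := h.toHyp
  set π := QuotientGroup.mk' (center (KK h.toHyp)) with hπ
  have hs : Function.Surjective π := QuotientGroup.mk'_surjective _
  have hk : π.ker = center (KK h.toHyp) := QuotientGroup.ker_mk' _
  have J := tsdj h π hs hk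
  have hker := ker_spec h π hk
  have ho : orderOf (π x) = 2 := by
    apply orderOf_eq_prime
    · rw [pow_two, ← map_mul, hx, map_one]
    · intro e
      apply hx1
      have h3 := (hker x e).2
      rw [pow_succ, pow_two, hx, one_mul] at h3
      exact h3
  obtain ⟨g', hg⟩ := J.conj_q1 ho
  obtain ⟨g, rfl⟩ := hs g'
  have hq : EK hh (Qc 1) * EK hh (Qc 1) = 1 := (tsd_K hh).q1_sq
  refine ⟨g, eq_of_involutions π hker hx ?_ ?_⟩
  · calc (g * EK hh (Qc 1) * g⁻¹) * (g * EK hh (Qc 1) * g⁻¹)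
        = g * (EK hh (Qc 1) * EK hh (Qc 1)) * g⁻¹ := by group
      _ = 1 := by rw [hq]; group
  · rw [← hg, map_mul, map_mul, map_inv]

/-- lifts of involutions are involutions -/
theorem sq_lift (h : Hyp4 ω) {Γ : Type*} [Group Γ] (σ : Γ →* KK h.toHyp)
    (hs : Function.Surjective σ) (hc : σ.ker ≤ center Γ) (h2 : ∀ ζ ∈ σ.ker, ζ * ζ = 1) :
    ∀ X : Γ, σ X * σ X = 1 → X * X = 1 := by
  have hh := h.toHyp
  obtain ⟨X0, hX0⟩ := hs (EK hh (Qc 1))
  have hq : EK hh (Qc 1) * EK hh (Qc 1) = 1 := (tsd_K hh).q1_sq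
  have hX00 : σ (X0 * X0) = 1 := by rw [map_mul, hX0, hq]
  have const : ∀ X : Γ, σ X * σ X = 1 → σ X ≠ 1 → X * X = X0 * X0 := by
    intro X e1 e2
    obtain ⟨g, hg⟩ := conj_t h _ e1 e2
    obtain ⟨G0, rfl⟩ := hs g
    exact Cfsg.Agent.Lib.Helper7.sq_lift_const σ hc h2 (X0 := X0) (X := X) (K := G0) hX00
      (by rw [hX0]; exact hg)
  have constI : ∀ (X : Γ) (x : ℕ), x < 1920 → σ X = EC hh x → mulI x x = 0 → x ≠ 0 →
      X * X = X0 * X0 := by
    intro X x hx e1 e2 e3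
    apply const
    · rw [e1, EC_mul hh hx hx, e2, EC_zero]
    · rw [e1, ← EC_zero hh]
      intro e
      exact e3 (EC_inj hh hx (by norm_num) e)
  obtain ⟨A, hA⟩ := hs (EC hh 60)
  obtain ⟨B, hB⟩ := hs (EC hh 1)
  obtain ⟨C, hC⟩ := hs (EC hh 2)
  obtain ⟨k1, k2, k3, k4, k5, k6, k7, n4, n5, n6, n7, l4, l5, l6, l7⟩ := e8_chk
  have q1 : X0 * X0 = 1 := by
    apply Cfsg.Agent.Lib.Helper7.sq_lift_eq_one σ hc h2 (q := X0 * X0) (X := A) (Y := B) (V := C) hX00
    · exact constI A 60 (by norm_num) hA k1 (by norm_num)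
    · exact constI B 1 (by norm_num) hB k2 (by norm_num)
    · exact constI C 2 (by norm_num) hC k3 (by norm_num)
    · exact constI (A * B) _ l4 (by rw [map_mul, hA, hB, EC_mul hh (by norm_num) (by norm_num)]) k4 n4
    · exact constI (A * C) _ l5 (by rw [map_mul, hA, hC, EC_mul hh (by norm_num) (by norm_num)]) k5 n5
    · exact constI (B * C) _ l6 (by rw [map_mul, hB, hC, EC_mul hh (by norm_num) (by norm_num)]) k6 n6
    · exact constI (A * (B * C)) _ l7 (by
        rw [map_mul, map_mul, hA, hB, hC, EC_mul hh (by norm_num) (by norm_num),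
          EC_mul hh (by norm_num) l6]) k7 n7
  intro X e
  by_cases e1 : σ X = 1
  · exact h2 X e1
  · rw [const X e e1, q1]

end

/-- adjusting one lift so that a relator with odd exponent holds -/
theorem adjust {Γ K : Type*} [Group Γ] [Group K] (σ : Γ →* K) (hc : σ.ker ≤ center Γ)
    (h2 : ∀ ζ ∈ σ.ker, ζ * ζ = 1) (c : ℕ → K) (Y : ℕ → Γ) (hY : ∀ i, σ (Y i) = c i) (j : ℕ)
    (w : List ℕ) (hw : σ (ev Y w) = 1) (hodd : w.count j % 2 = 1) :
    ∃ Y' : ℕ → Γ, (∀ i, σ (Y' i) = c i) ∧ ev Y' w = 1 ∧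
      ∀ w' : List ℕ, w'.count j % 2 = 0 → ev Y' w' = ev Y w' := by
  set a := ev Y w with ha
  have hac : ∀ g, a * g = g * a := comm_of_ker σ hc hw
  have haa : a * a = 1 := h2 a hw
  have hpow : ∀ n, a ^ n = a ^ (n % 2) := by
    intro n
    conv_lhs => rw [← Nat.div_add_mod n 2, pow_add, pow_mul, pow_two, haa, one_pow, one_mul]
  refine ⟨Function.update Y j (Y j * a), ?_, ?_, ?_⟩
  · intro i
    by_cases hij : i = j
    · subst hij
      rw [Function.update_self, map_mul, hw, mul_one, hY]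
    · rw [Function.update_of_ne hij, hY]
  · rw [ev_update Y j a hac, hpow, hodd, pow_one, ← ha, haa]
  · intro w' hw'
    rw [ev_update Y j a hac, hpow, hw', pow_zero, mul_one]

section
variable {F : Type*} [Field F] [Finite F] {ω : F}

theorem ker_eq_bot_two (h : Hyp4 ω) {Γ : Type*} [Group Γ] [Finite Γ] (σ : Γ →* KK h.toHyp)
    (hσ : Cfsg.IsStemExtension σ) (hexp : ∀ x ∈ σ.ker, x ^ 2 = 1) : σ.ker = ⊥ := by
  have hh := h.toHyp
  have hc := hσ.2.1
  have h2 : ∀ ζ ∈ σ.ker, ζ * ζ = 1 := fun ζ hζ => by rw [← pow_two]; exact hexp ζ hζ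
  have F1 := sq_lift h σ hσ.1 hc h2
  have hl : ∀ i, ∃ Y : Γ, σ Y = cM hh i := fun i => hσ.1 _
  choose Y0 hY0 using hl
  have val : ∀ (Y : ℕ → Γ), (∀ i, σ (Y i) = cM hh i) → ∀ w, evI w = 0 → σ (ev Y w) = 1 := by
    intro Y hY w e
    rw [map_ev, show (fun i => σ (Y i)) = cM hh from funext hY, ev_cM, e, EC_zero]
  obtain ⟨r3, r4, r5, r6, r6', -, -⟩ := relC_chk
  obtain ⟨n1, n2, n3, n4, n5, n6⟩ := cnt_chk
  obtain ⟨Y1, hY1, a1, b1⟩ := adjust σ hc h2 (cM hh) Y0 hY0 1 MCrel_5 (val Y0 hY0 _ r5)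
    (by rw [n1])
  obtain ⟨Y2, hY2, a2, b2⟩ := adjust σ hc h2 (cM hh) Y1 hY1 2 MCrel_3 (val Y1 hY1 _ r3)
    (by rw [n2])
  obtain ⟨y, hy1, a3, b3⟩ := adjust σ hc h2 (cM hh) Y2 hY2 0 MCrel_4 (val Y2 hY2 _ r4)
    (by rw [n4])
  have R5 : ev y MCrel_5 = 1 := by rw [b3 _ (by rw [n6]), b2 _ (by rw [n3]), a1]
  have R3 : ev y MCrel_3 = 1 := by rw [b3 _ (by rw [n5]), a2]
  have hy2 : ∀ i, y i * y i = 1 := fun i => F1 _ (by rw [hy1, cM_sq])
  have sq : ∀ i, ev y [i, i] = 1 := by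
    intro i
    rw [ev_cons, ev_cons, ev_nil, mul_one, hy2]
  have hrel : ∀ r, ev y (MCrel r) = 1 := by
    intro r
    unfold MCrel
    split
    · exact sq 0
    · exact sq 1
    · exact sq 2
    · exact R3
    · exact a3
    · exact R5
    · rw [r6', ev_append]
      apply F1
      rw [← map_mul, ← ev_append, ← r6']
      exact val y hy1 _ r6
    · rfl
  set N := closure (y '' {i | i < 3}) with hN
  have rep := exists_rep y ⊥ MCtab MCjus MCpar MCrel 1920 3 0 hy2 (by norm_num) (by norm_num)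
    (by norm_num) hrel (fun i hi => absurd hi (Nat.not_lt_zero _)) MCchk_all
  have tree : ∀ w, w < 1920 → sOf y MCpar w ∈ N ∧ σ (sOf y MCpar w) = EC hh (MCelt w) := by
    intro w
    induction w using Nat.strong_induction_on with
    | _ w ih =>
      intro hw
      have hchk := treeC_chk.1 w hw
      rw [chkTreeC, Bool.and_eq_true, Bool.and_eq_true, Bool.or_eq_true] at hchk
      rcases hchk.2 with h0 | h1
      · have : w = 0 := Nat.eq_of_beq_eq_true h0
        subst this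
        rw [sOf_zero, treeC_chk.2, EC_zero, map_one]
        exact ⟨N.one_mem, rfl⟩
      · rw [Bool.and_eq_true, Bool.and_eq_true] at h1
        have p1 : MCpar w >>> 2 < w := Nat.blt_eq.mp h1.1.1
        have p2 : MCpar w &&& 3 < 3 := Nat.blt_eq.mp h1.1.2
        have p3 := Nat.eq_of_beq_eq_true h1.2
        obtain ⟨i1, i2⟩ := ih _ p1 (by omega)
        have hp := treeC_chk.1 (MCpar w >>> 2) (by omega)
        rw [chkTreeC, Bool.and_eq_true, Bool.and_eq_true] at hp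
        have p4 : MCelt (MCpar w >>> 2) < 1920 := Nat.blt_eq.mp hp.1.1
        rw [sOf, dif_pos p1]
        refine ⟨N.mul_mem i1 (subset_closure ⟨_, p2, rfl⟩), ?_⟩
        rw [map_mul, i2, hy1, cM, EC_mul hh p4 (gI_lt _), ← p3]
  have eltlt : ∀ w < 1920, MCelt w < 1920 ∧ MCpos (MCelt w) = w := by
    intro w hw
    have hchk := treeC_chk.1 w hw
    rw [chkTreeC, Bool.and_eq_true, Bool.and_eq_true] at hchk
    exact ⟨Nat.blt_eq.mp hchk.1.1, Nat.eq_of_beq_eq_true hchk.1.2⟩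
  have hNk : ∀ n ∈ N, σ n = 1 → n = 1 := by
    intro n hn e
    obtain ⟨w, hw, h1⟩ := rep n hn
    rw [mem_bot, mul_inv_eq_one] at h1
    rw [h1, (tree w hw).2, ← EC_zero hh] at e
    have e0 := EC_inj hh (eltlt w hw).1 (by norm_num) e
    have : w = 0 := by
      have h3 := (eltlt w hw).2
      have h4 := (eltlt 0 (by norm_num)).2
      rw [e0] at h3
      rw [treeC_chk.2] at h4
      omega
    rw [h1, this, sOf_zero]
  have cN1 : Nat.card N ≤ 1920 := by
    have := card_closure_le y ⊥ MCtab MCjus MCpar MCrel 1920 3 0 hy2 (by norm_num) (by norm_num)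
      (by norm_num) hrel (fun i hi => absurd hi (Nat.not_lt_zero _)) MCchk_all
    rwa [Subgroup.card_bot, one_mul] at this
  have cN2 : 1920 ≤ Nat.card N := by
    let f : Fin 1920 → N := fun w => ⟨sOf y MCpar w, (tree w w.2).1⟩
    have hf : Function.Injective f := by
      intro a b e
      have e1 : sOf y MCpar a = sOf y MCpar b := congrArg Subtype.val e
      have e2 := congrArg σ e1
      rw [(tree a a.2).2, (tree b b.2).2] at e2
      have e3 := EC_inj hh (eltlt a a.2).1 (eltlt b b.2).1 e2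
      have h3 := (eltlt a a.2).2
      have h4 := (eltlt b b.2).2
      rw [e3] at h3
      exact Fin.ext (by omega)
    have := Nat.card_le_card_of_injective f hf
    rwa [Nat.card_fin] at this
  apply Cfsg.Agent.Lib.Helper7.ker_eq_bot_of_complement hσ Nat.prime_two hexp N hNk
  rw [le_antisymm cN1 cN2, card_KK h]
  norm_num

end

end Cfsg.Agent.Lib.Helper56.J3
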