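import Mathlib
import Cfsg.Agent.Lib.Helper56.MultOdd
import Cfsg.Agent.Lib.Helper56.MultTwo
import Cfsg.Agent.Lib.Helper56.J3Final
import Cfsg.Agent.S3958

/-!
The Schur multiplier of `J₃` is cyclic of order 3 (helper56).
-/

set_option autoImplicit false

namespace Cfsg.Agent.Lib.Helper56.J3

open Cfsg.Agent.Lib.Helper56.TC Subgroup
open scoped commutatorElement

universe u

section
variable {F : Type u} [Field F] [Finite F] {ω : F}

/-- `3·J₃` has trivial multiplier -/
theorem mult_KK (h : Hyp4 ω) : Cfsg.HasCyclicSchurMultiplier (KK h.toHyp) 1 := by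
  apply Cfsg.Agent.Lib.Helper7.trivial_multiplier_of_exponent
  intro p hp Γ _ _ σ hσ hexp
  by_cases hp2 : p = 2
  · subst hp2
    exact ker_eq_bot_two h σ hσ hexp
  · exact ker_eq_bot_odd h σ hσ hp hp2 hexp

theorem mQ_noncomm : mQ 2 3 ≠ mQ 3 2 := by decide +kernel

/-- `3·J₃` is perfect -/
theorem commutator_KK (h : Hyp4 ω) : commutator (KK h.toHyp) = ⊤ := by
  have hh := h.toHyp
  set K := KK h.toHyp with hK
  set π := QuotientGroup.mk' (center K) with hπ
  have hs : Function.Surjective π := QuotientGroup.mk'_surjective _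
  have hk : π.ker = center K := QuotientGroup.ker_mk' _
  have J := tsdj h π hs hk
  have hker := ker_spec h π hk
  have := (main_KK h).2.2.2
  have hG : commutator (K ⧸ center K) = ⊤ := by
    rcases (inferInstance : (commutator (K ⧸ center K)).Normal).eq_bot_or_eq_top with hb | ht
    · exfalso
      have T := J.toTSD
      have e : ⁅π (EK hh (Qc 2)), π (EK hh (Qc 3))⁆ = 1 := by
        rw [← mem_bot, ← hb]
        exact Subgroup.commutator_mem_commutator (mem_top _) (mem_top _)
      rw [commutatorElement_eq_one_iff_mul_comm, T.qq 2 (by norm_num) 3 (by norm_num),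
        T.qq 3 (by norm_num) 2 (by norm_num)] at e
      exact mQ_noncomm (T.qinj _ (mQ_lt _ (by norm_num) _ (by norm_num)) _
        (mQ_lt _ (by norm_num) _ (by norm_num)) e)
    · exact ht
  have hmap : (commutator K).map π = ⊤ := by
    rw [Cfsg.Agent.Lib.Helper66.map_commutator_eq_of_surjective π hs, hG]
  have hu : ∀ i, uM hh i ∈ commutator K := by
    intro i
    have : π (uM hh i) ∈ (commutator K).map π := by rw [hmap]; exact mem_top _
    obtain ⟨c, hc, e⟩ := this
    set z := c⁻¹ * uM hh i with hz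
    have hz1 : π z = 1 := by rw [hz, map_mul, map_inv, e, inv_mul_cancel]
    obtain ⟨zc, z3⟩ := hker z hz1
    have e1 : uM hh i = c * z := by rw [hz]; group
    -- `z = z ^ 3 * (z ^ 2)⁻¹` and `z ^ 2 ∈ commutator`
    have h2 : z * z ∈ commutator K := by
      have : z * z = c⁻¹ * c⁻¹ * (uM hh i * uM hh i) := by
        have e2 : uM hh i * uM hh i = c * c * (z * z) := by
          rw [e1]
          calc c * z * (c * z) = c * (z * c) * z := by group
            _ = c * (c * z) * z := by rw [zc c]
            _ = _ := by group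
        rw [e2]; group
      rw [this, uM_sq, mul_one]
      exact (commutator K).mul_mem ((commutator K).inv_mem hc) ((commutator K).inv_mem hc)
    have h3 : z = (z * z)⁻¹ := by
      rw [eq_inv_iff_mul_eq_one, ← mul_assoc, ← pow_two, ← pow_succ]
      exact z3
    rw [e1]
    apply (commutator K).mul_mem hc
    rw [h3]
    exact (commutator K).inv_mem h2
  rw [eq_top_iff, ← closure_uM hh, closure_le]
  rintro _ ⟨i, -, rfl⟩
  exact hu i

theorem mult_aux (h : Hyp4 ω) (X : Subgroup (GL Cfsg.Spor.F9 F)) (hX : X = KK h.toHyp) :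
    Cfsg.HasCyclicSchurMultiplier (X ⧸ center X) 3 := by
  subst hX
  set K := KK h.toHyp with hK
  set π := QuotientGroup.mk' (center K) with hπ
  have hs : Function.Surjective π := QuotientGroup.mk'_surjective _
  have hk : π.ker = center K := QuotientGroup.ker_mk' _
  have hstem : Cfsg.IsStemExtension π := by
    refine ⟨hs, by rw [hk], ?_⟩
    rw [commutator_KK h]
    exact le_top
  have hcard : Nat.card π.ker = 3 := by rw [hk]; exact (main_KK h).1
  have : Fact (Nat.Prime 3) := ⟨by norm_num⟩
  have hZ : Nat.card (Multiplicative (ZMod 3)) = 3 := by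
    rw [Nat.card_eq_fintype_card, Fintype.card_multiplicative, ZMod.card]
  let e : π.ker ≃* Multiplicative (ZMod 3) := mulEquivOfPrimeCardEq hcard hZ
  refine ⟨⟨K, inferInstance, inferInstance, π, hstem, ⟨e⟩⟩, ?_⟩
  intro Δ _ _ τ hτ
  obtain ⟨φ, hφ⟩ := Cfsg.Agent.S3958.result π hstem (mult_KK h) Δ τ hτ
  exact ⟨φ.comp e.symm.toMonoidHom, hφ.comp e.symm.surjective⟩

end

end Cfsg.Agent.Lib.Helper56.J3
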