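import Mathlib
import Cfsg.Agent.Lib.Helper56.FrobComplement

/-!
`SL(2,p)` is a Frobenius complement as soon as a table of a fixed-point-free representation
in `2 × 2` matrices over `ZMod q` is given (all checks are decidable statements on entries).
-/

set_option autoImplicit false

namespace Cfsg.Agent.Lib.Helper56

section
variable {R : Type*} [CommRing R]

def toMat (t : R × R × R × R) : Matrix (Fin 2) (Fin 2) R := !![t.1, t.2.1; t.2.2.1, t.2.2.2]

def mul4 (s t : R × R × R × R) : R × R × R × R :=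
  (s.1 * t.1 + s.2.1 * t.2.2.1, s.1 * t.2.1 + s.2.1 * t.2.2.2,
    s.2.2.1 * t.1 + s.2.2.2 * t.2.2.1, s.2.2.1 * t.2.1 + s.2.2.2 * t.2.2.2)

theorem toMat_mul4 (s t : R × R × R × R) : toMat (mul4 s t) = toMat s * toMat t := by
  ext i j
  fin_cases i <;> fin_cases j <;> simp [toMat, mul4, Matrix.mul_apply, Fin.sum_univ_two]

theorem toMat_one : toMat ((1, 0, 0, 1) : R × R × R × R) = 1 := by
  ext i j
  fin_cases i <;> fin_cases j <;> simp [toMat]

end

theorem frobenius_of_table (p q : ℕ) [Fact p.Prime] [Fact q.Prime]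
    (T : ZMod p → ZMod p → ZMod p → ZMod p → ZMod q × ZMod q × ZMod q × ZMod q)
    (h1 : T 1 0 0 1 = (1, 0, 0, 1))
    (hmul : ∀ a b c d : ZMod p, a * d - b * c = 1 → ∀ a' b' c' d' : ZMod p, a' * d' - b' * c' = 1 →
      T (a * a' + b * c') (a * b' + b * d') (c * a' + d * c') (c * b' + d * d')
        = mul4 (T a b c d) (T a' b' c' d'))
    (hfpf : ∀ a b c d : ZMod p, a * d - b * c = 1 → (a, b, c, d) ≠ (1, 0, 0, 1) →
      ((T a b c d).1 - 1) * ((T a b c d).2.2.2 - 1) - (T a b c d).2.1 * (T a b c d).2.2.1 ≠ 0) :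
    ∃ (L : Type) (_ : Group L) (_ : Finite L) (H : Subgroup L),
      Cfsg.IsFrobeniusComplement H ∧ Nonempty (H ≃* Matrix.SpecialLinearGroup (Fin 2) (ZMod p)) := by
  have hdet : ∀ g : Matrix.SpecialLinearGroup (Fin 2) (ZMod p), g 0 0 * g 1 1 - g 0 1 * g 1 0 = 1 := by
    intro g
    have := g.2
    rwa [Matrix.det_fin_two] at this
  let f : Matrix.SpecialLinearGroup (Fin 2) (ZMod p) →* Matrix (Fin 2) (Fin 2) (ZMod q) :=
    { toFun := fun g => toMat (T (g 0 0) (g 0 1) (g 1 0) (g 1 1))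
      map_one' := by
        simp only [Matrix.SpecialLinearGroup.coe_one, Matrix.one_apply_eq]
        rw [Matrix.one_apply_ne (by decide : (0 : Fin 2) ≠ 1), Matrix.one_apply_ne (by decide : (1 : Fin 2) ≠ 0), h1,
          toMat_one]
      map_mul' := by
        intro g h
        rw [← toMat_mul4, ← hmul _ _ _ _ (hdet g) _ _ _ _ (hdet h)]
        simp only [Matrix.SpecialLinearGroup.coe_mul, Matrix.mul_apply, Fin.sum_univ_two] }
  let _ : DistribMulAction (Matrix.SpecialLinearGroup (Fin 2) (ZMod p)) (Fin 2 → ZMod q) :=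
    DistribMulAction.compHom (Fin 2 → ZMod q) f
  have hnt : Nontrivial (Matrix.SpecialLinearGroup (Fin 2) (ZMod p)) := by
    refine ⟨⟨⟨!![1, 1; 0, 1], by simp [Matrix.det_fin_two]⟩, 1, ?_⟩⟩
    intro h
    have := congrArg (fun g : Matrix.SpecialLinearGroup (Fin 2) (ZMod p) => g 0 1) h
    simp at this
  obtain ⟨L, hg, hf, C, hC, ⟨e⟩⟩ := exists_frobenius_of_fpf_add (V := Fin 2 → ZMod q)
    (H := Matrix.SpecialLinearGroup (Fin 2) (ZMod p)) (by
      intro g hg v hv
      have hv' : (f g).mulVec v = v := hv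
      have hne : (g 0 0, g 0 1, g 1 0, g 1 1) ≠ ((1, 0, 0, 1) : ZMod p × ZMod p × ZMod p × ZMod p) := by
        intro h
        apply hg
        simp only [Prod.mk.injEq] at h
        obtain ⟨h00, h01, h10, h11⟩ := h
        ext i j
        fin_cases i <;> fin_cases j <;> simp [h00, h01, h10, h11]
      have hd := hfpf _ _ _ _ (hdet g) hne
      have hdet' : (f g - 1).det ≠ 0 := by
        rw [Matrix.det_fin_two]
        simpa [f, toMat] using hd
      apply Matrix.eq_zero_of_mulVec_eq_zero hdet'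
      rw [Matrix.sub_mulVec, hv', Matrix.one_mulVec, sub_self])
  exact ⟨L, hg, hf, C, hC, ⟨e.symm⟩⟩

end Cfsg.Agent.Lib.Helper56
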