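import Mathlib
import Cfsg.Prelude.Def_SporadicCombinatorics
import Cfsg.Agent.Lib.Helper56.St12Search

/-!
# Soundness of the search of `St12Search`: at most 720 systems S(5,6,12) contain a given hexad
-/

set_option autoImplicit false

namespace Cfsg.Agent.Lib.Helper56.St12

open Cfsg
open Cfsg.Agent.Lib.Helper56.TG
open Cfsg.Agent.Lib.Helper27 (pc allBelow allBelow_iff)

/-! ### masks -/

theorem mask_erase {M : Finset ArrayPt} {p : ArrayPt} (hp : p ∈ M) :
    mask (M.erase p) = mask M ^^^ 2 ^ idx p := by
  apply eq_of_testBit_idx (mask_lt _)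
    (Nat.xor_lt_two_pow (mask_lt _) (Nat.pow_lt_pow_right (by norm_num) (idx_lt p)))
  intro q
  rw [Nat.testBit_xor, testBit_mask_idx, testBit_mask_idx, Nat.testBit_two_pow]
  by_cases h : q = p
  · subst h; simp [hp]
  · have h' : ¬ idx p = idx q := fun e => h (idx_injective e).symm
    simp [h, h']

theorem mask_lt' (s : Finset ArrayPt) : mask s < 4096 := mask_lt s

/-- the 5-subsets of a 6-set, in terms of masks. -/
theorem five_sub_iff {m : ℕ} (hm : m < 4096) (h6 : pc m = 6) (t : ℕ) :
    (∃ i < 12, m.testBit i = true ∧ t = m ^^^ 2 ^ i) ↔ (t < 4096 ∧ pc t = 5 ∧ t &&& m = t) := by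
  have hmM : mask (unmask m) = m := mask_unmask hm
  have hcard : (unmask m).card = 6 := by rw [card_unmask hm, h6]
  constructor
  · rintro ⟨i, hi, hb, rfl⟩
    have hp : pt i ∈ unmask m := by rw [mem_unmask, idx_pt hi]; exact hb
    have e : m ^^^ 2 ^ i = mask ((unmask m).erase (pt i)) := by
      rw [mask_erase hp, hmM, idx_pt hi]
    rw [e]
    refine ⟨mask_lt' _, ?_, ?_⟩
    · rw [← card_eq_pc, Finset.card_erase_of_mem hp, hcard]
    · have h2 := subset_iff_mask.1 (Finset.erase_subset (pt i) (unmask m))
      rw [hmM] at h2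
      exact h2
  · rintro ⟨ht, h5, hsub⟩
    have htT : mask (unmask t) = t := mask_unmask ht
    have hsub' : unmask t ⊆ unmask m := by
      rw [subset_iff_mask, htT, hmM]; exact hsub
    have hc5 : (unmask t).card = 5 := by rw [card_unmask ht, h5]
    have hd : (unmask m \ unmask t).card = 1 := by
      rw [Finset.card_sdiff_of_subset hsub', hcard, hc5]
    obtain ⟨p, hp⟩ := Finset.card_eq_one.1 hd
    have hpm : p ∈ unmask m ∧ p ∉ unmask t := by
      have : p ∈ unmask m \ unmask t := by rw [hp]; exact Finset.mem_singleton_self p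
      exact Finset.mem_sdiff.1 this
    refine ⟨idx p, idx_lt p, (mem_unmask _ _).1 hpm.1, ?_⟩
    have e : unmask t = (unmask m).erase p := by
      ext q
      rw [Finset.mem_erase]
      constructor
      · intro hq
        exact ⟨fun h => hpm.2 (h ▸ hq), hsub' hq⟩
      · rintro ⟨hq1, hq2⟩
        by_contra hq3
        have : q ∈ unmask m \ unmask t := Finset.mem_sdiff.2 ⟨hq2, hq3⟩
        rw [hp, Finset.mem_singleton] at this
        exact hq1 this
    rw [← htT, e, mask_erase hpm.1, hmM]

theorem five_ge : ∀ t < 31, pc t ≠ 5 := by decide +kernel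

theorem full5_check : allBelow (fun t => tb full5 t == Nat.beq (pc t) 5) 4096 = true := by
  decide +kernel

theorem full5_lt : full5 < 2 ^ 4096 := by decide +kernel

theorem full5_spec {t : ℕ} (ht : t < 4096) : full5.testBit t = true ↔ pc t = 5 := by
  have h := (allBelow_iff _ _).1 full5_check t ht
  rw [tb_eq, beq_iff_eq] at h
  rw [h]
  exact ⟨Nat.eq_of_beq_eq_true, fun e => by rw [e]; rfl⟩

theorem full5_lt_of_testBit {t : ℕ} (h : full5.testBit t = true) : t < 4096 := by
  by_contra hc
  have h2 : (2 : ℕ) ^ 4096 ≤ 2 ^ t := Nat.pow_le_pow_right (by norm_num) (not_lt.1 hc)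
  rw [Nat.testBit_lt_two_pow (lt_of_lt_of_le full5_lt h2)] at h
  exact Bool.false_ne_true h

/-- adding a point to a 5-set. -/
theorem insert_mask {s z : ℕ} (hs : s < 4096) (h5 : pc s = 5) (hz : z < 12)
    (hb : s.testBit z = false) :
    s ||| 2 ^ z < 4096 ∧ pc (s ||| 2 ^ z) = 6 ∧ unmask (s ||| 2 ^ z) = insert (pt z) (unmask s) := by
  have hn : pt z ∉ unmask s := by rw [mem_unmask, idx_pt hz, hb]; simp
  have e : s ||| 2 ^ z = mask (insert (pt z) (unmask s)) := by
    rw [mask_insert, mask_unmask hs, idx_pt hz, Nat.or_comm]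
  rw [e]
  refine ⟨mask_lt' _, ?_, unmask_mask _⟩
  rw [← card_eq_pc, Finset.card_insert_of_notMem hn, card_unmask hs, h5]

/-! ### the invariant -/

/-- the Steiner systems containing the blocks with masks in `L`. -/
def SS (L : List ℕ) : Set (Set (Finset ArrayPt)) :=
  {B | IsSteinerSystem 5 6 B ∧ ∀ m ∈ L, unmask m ∈ B}

structure Inv (cov : ℕ) (L : List ℕ) : Prop where
  blk : ∀ m ∈ L, m < 4096 ∧ pc m = 6
  cov_iff : ∀ t, t < 4096 → pc t = 5 → (cov.testBit t = true ↔ ∃ m ∈ L, t &&& m = t)

theorem inv_nil : Inv 0 [] :=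
  ⟨by simp, by simp⟩

theorem testBit_del1s_iff {m : ℕ} (hm : m < 4096) (h6 : pc m = 6) {t : ℕ} (ht : t < 4096)
    (h5 : pc t = 5) : (del1s m).testBit t = true ↔ t &&& m = t := by
  have h31 : 31 ≤ t := by
    by_contra hc
    exact five_ge t (not_le.1 hc) h5
  rw [testBit_del1s m h31, testBit_del1, five_sub_iff hm h6]
  exact ⟨fun h => h.2.2, fun h => ⟨ht, h5, h⟩⟩

theorem inv_cons {cov : ℕ} {L : List ℕ} (h : Inv cov L) {m : ℕ} (hm : m < 4096) (h6 : pc m = 6)
    (hd : (del1s m &&& cov) >>> 31 = 0) : Inv (cov ^^^ del1s m) (m :: L) := by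
  refine ⟨?_, ?_⟩
  · intro m' hm'
    rcases List.mem_cons.1 hm' with rfl | h'
    · exact ⟨hm, h6⟩
    · exact h.blk m' h'
  · intro t ht h5
    have h31 : 31 ≤ t := by
      by_contra hc
      exact five_ge t (not_le.1 hc) h5
    have hnot : ¬ ((del1s m).testBit t = true ∧ cov.testBit t = true) := by
      rintro ⟨h1, h2⟩
      have h3 : ((del1s m &&& cov) >>> 31).testBit (t - 31) = true := by
        rw [Nat.testBit_shiftRight, Nat.add_sub_cancel' h31, Nat.testBit_and, h1, h2]; rfl
      rw [hd] at h3
      simp at h3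
    rw [Nat.testBit_xor, List.exists_mem_cons_iff, ← h.cov_iff t ht h5,
      ← testBit_del1s_iff hm h6 ht h5]
    cases h1 : (del1s m).testBit t <;> cases h2 : cov.testBit t <;> simp_all

/-- two blocks of a Steiner system through a common 5-set agree. -/
theorem block_unique {B : Set (Finset ArrayPt)} (hB : IsSteinerSystem 5 6 B) {t m m' : ℕ}
    (ht : t < 4096) (h5 : pc t = 5) (hm : m < 4096) (hm' : m' < 4096) (hb : unmask m ∈ B)
    (hb' : unmask m' ∈ B) (h1 : t &&& m = t) (h2 : t &&& m' = t) : m = m' := by
  obtain ⟨b, _, hu⟩ := hB.2 (unmask t) (by rw [card_unmask ht, h5])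
  have s1 : unmask t ⊆ unmask m := by
    rw [subset_iff_mask, mask_unmask ht, mask_unmask hm]; exact h1
  have s2 : unmask t ⊆ unmask m' := by
    rw [subset_iff_mask, mask_unmask ht, mask_unmask hm']; exact h2
  exact unmask_injOn hm hm' ((hu _ ⟨hb, s1⟩).trans (hu _ ⟨hb', s2⟩).symm)

theorem leaf {cov : ℕ} {L : List ℕ} (h : Inv cov L) (hx : (full5 ^^^ cov) >>> 31 = 0) :
    (SS L).ncard ≤ 1 := by
  have hcov : ∀ t, t < 4096 → pc t = 5 → ∃ m ∈ L, t &&& m = t := by
    intro t ht h5
    rw [← h.cov_iff t ht h5]
    have h31 : 31 ≤ t := by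
      by_contra hc
      exact five_ge t (not_le.1 hc) h5
    have h3 : ((full5 ^^^ cov) >>> 31).testBit (t - 31) = false := by rw [hx]; simp
    rw [Nat.testBit_shiftRight, Nat.add_sub_cancel' h31, Nat.testBit_xor,
      (full5_spec ht).2 h5] at h3
    cases h4 : cov.testBit t
    · rw [h4] at h3; simp at h3
    · rfl
  have key : ∀ B ∈ SS L, B = {b | ∃ m ∈ L, unmask m = b} := by
    rintro B ⟨hB, hL⟩
    ext b
    constructor
    · intro hb
      have hc : b.card = 6 := hB.1 b hb
      obtain ⟨T, hT, hT5⟩ := Finset.exists_subset_card_eq (s := b) (n := 5) (by omega)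
      obtain ⟨m, hm, hsub⟩ := hcov (mask T) (mask_lt T) (by rw [← card_eq_pc, hT5])
      refine ⟨m, hm, ?_⟩
      have e := block_unique hB (mask_lt T) (by rw [← card_eq_pc, hT5]) (h.blk m hm).1 (mask_lt b)
        (hL m hm) (by rw [unmask_mask]; exact hb) hsub (subset_iff_mask.1 hT)
      rw [e, unmask_mask]
    · rintro ⟨m, hm, rfl⟩
      exact hL m hm
  rw [Set.ncard_le_one (Set.toFinite _)]
  intro B hB B' hB'
  rw [key B hB, key B' hB']

theorem branch_cover {L : List ℕ} {s : ℕ} (hs : s < 4096) (h5 : pc s = 5) :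
    SS L ⊆ ⋃ z ∈ Finset.range 12, (if s.testBit z = true then ∅ else SS ((s ||| 2 ^ z) :: L)) := by
  rintro B ⟨hB, hL⟩
  obtain ⟨b, ⟨hb, hsb⟩, _⟩ := hB.2 (unmask s) (by rw [card_unmask hs, h5])
  have hc : b.card = 6 := hB.1 b hb
  have hd : (b \ unmask s).card = 1 := by
    rw [Finset.card_sdiff_of_subset hsb, hc, card_unmask hs, h5]
  obtain ⟨p, hp⟩ := Finset.card_eq_one.1 hd
  have hpm : p ∈ b ∧ p ∉ unmask s := by
    have : p ∈ b \ unmask s := by rw [hp]; exact Finset.mem_singleton_self p
    exact Finset.mem_sdiff.1 this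
  have hbit : s.testBit (idx p) = false := by
    have := hpm.2
    rw [mem_unmask] at this
    simpa using this
  have e : b = insert p (unmask s) := by
    ext q
    rw [Finset.mem_insert]
    constructor
    · intro hq
      by_cases hq2 : q ∈ unmask s
      · exact Or.inr hq2
      · have : q ∈ b \ unmask s := Finset.mem_sdiff.2 ⟨hq, hq2⟩
        rw [hp, Finset.mem_singleton] at this
        exact Or.inl this
    · rintro (rfl | hq)
      · exact hpm.1
      · exact hsb hq
  simp only [Set.mem_iUnion, Finset.mem_range]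
  refine ⟨idx p, idx_lt p, ?_⟩
  rw [if_neg (by rw [hbit]; simp)]
  refine ⟨hB, ?_⟩
  intro m hm
  rcases List.mem_cons.1 hm with rfl | h'
  · rw [(insert_mask hs h5 (idx_lt p) hbit).2.2, pt_idx, ← e]
    exact hb
  · exact hL m h'

theorem count_sound : ∀ (fuel cov : ℕ) (L : List ℕ), Inv cov L → count fuel cov < 1000000 →
    (SS L).ncard ≤ count fuel cov := by
  intro fuel
  induction fuel with
  | zero =>
    intro cov L _ h
    rw [count_zero] at h
    exact absurd h (lt_irrefl _)
  | succ fuel ih =>
    intro cov L hI hlt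
    rw [count_succ, body_eq] at hlt ⊢
    by_cases hx : (full5 ^^^ cov) >>> 31 = 0
    · rw [if_pos hx]
      exact leaf hI hx
    · rw [if_neg hx] at hlt ⊢
      set s := hbv (full5 ^^^ cov) with hs_def
      by_cases hf : full5.testBit s = true
      · rw [if_pos hf] at hlt ⊢
        by_cases hc : cov.testBit s = true
        · rw [if_pos hc] at hlt
          exact absurd hlt (lt_irrefl _)
        · rw [if_neg hc] at hlt ⊢
          have hs : s < 4096 := full5_lt_of_testBit hf
          have h5 : pc s = 5 := (full5_spec hs).1 hf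
          refine le_trans (Set.ncard_le_ncard (branch_cover hs h5) (Set.toFinite _)) ?_
          refine le_trans (Finset.set_ncard_biUnion_le _ _) ?_
          apply Finset.sum_le_sum
          intro z hz
          have hz12 : z < 12 := Finset.mem_range.1 hz
          have hterm : term (count fuel) cov s z < 1000000 :=
            lt_of_le_of_lt (Finset.single_le_sum (f := fun z => term (count fuel) cov s z)
              (fun _ _ => Nat.zero_le _) hz) hlt
          rw [term_eq] at hterm ⊢
          by_cases hb : s.testBit z = true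
          · rw [if_pos hb, if_pos hb]; simp
          · rw [if_neg hb, if_neg hb] at *
            have hb' : s.testBit z = false := by simpa using hb
            obtain ⟨hm, h6, _⟩ := insert_mask hs h5 hz12 hb'
            by_cases hd : (del1s (s ||| 2 ^ z) &&& cov) >>> 31 = 0
            · rw [if_pos hd] at hterm ⊢
              exact ih _ _ (inv_cons hI hm h6 hd) hterm
            · rw [if_neg hd]
              -- conflict: no such system
              have hempty : SS ((s ||| 2 ^ z) :: L) = ∅ := by
                rw [Set.eq_empty_iff_forall_notMem]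
                rintro B ⟨hB, hL⟩
                obtain ⟨j, hj⟩ := Nat.exists_testBit_of_ne_zero hd
                rw [Nat.testBit_shiftRight, Nat.testBit_and, Bool.and_eq_true] at hj
                obtain ⟨hj1, hj2⟩ := hj
                rw [testBit_del1s _ (Nat.le_add_right 31 j), testBit_del1, five_sub_iff hm h6] at hj1
                obtain ⟨ht, ht5, hsub⟩ := hj1
                obtain ⟨m', hm', hsub'⟩ := (hI.cov_iff _ ht ht5).1 hj2
                have e := block_unique hB ht ht5 hm (hI.blk m' hm').1
                  (hL _ (List.mem_cons_self)) (hL _ (List.mem_cons_of_mem _ hm')) hsub hsub'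
                apply hc
                rw [hI.cov_iff s hs h5]
                refine ⟨m', hm', ?_⟩
                rw [← e]
                apply Nat.eq_of_testBit_eq
                intro i
                rw [Nat.testBit_and, Nat.testBit_or]
                cases s.testBit i <;> simp
              rw [hempty]; simp
      · rw [if_neg hf] at hlt
        exact absurd hlt (lt_irrefl _)

theorem ncard_SS_le : (SS [4032]).ncard ≤ 720 := by
  have h1 : count 132 (del1s 4032) = 720 := by
    have := count_eq
    rwa [force_eq] at this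
  have hI : Inv (del1s 4032) [4032] := by
    have := inv_cons inv_nil (m := 4032) (by norm_num) (by decide +kernel) (by simp)
    rwa [Nat.zero_xor] at this
  have := count_sound 132 (del1s 4032) [4032] hI (by rw [h1]; norm_num)
  rwa [h1] at this

end Cfsg.Agent.Lib.Helper56.St12
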