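import Mathlib
import Cfsg.Prelude.Def_SporadicCombinatorics
import Cfsg.Agent.Lib.Helper56.TGCode

/-!
# The hexads of the ternary Golay code, in the bitmask model
-/

set_option autoImplicit false

namespace Cfsg.Agent.Lib.Helper56.TG

open Cfsg
open Cfsg.Agent.Lib.Helper27 (pc allBelow allBelow_iff)

/-- masks of the 132 hexads. -/
def hexL : List ℕ := [63, 222, 237, 243, 347, 366, 373, 413, 427, 438, 455, 504, 591, 630, 633, 667, 679, 700, 725, 746, 791, 813, 826, 860, 867, 910, 945, 969, 978, 996, 1117, 1127, 1146, 1175, 1198, 1209, 1227, 1268, 1295, 1331, 1340, 1366, 1385, 1434, 1445, 1484, 1489, 1506, 1566, 1579, 1589, 1619, 1644, 1677, 1714, 1734, 1752, 1761, 1817, 1830, 1861, 1866, 1904, 1923, 1940, 1960, 2135, 2155, 2172, 2191, 2229, 2234, 2265, 2278, 2334, 2343, 2361, 2381, 2418, 2451, 2476, 2506, 2516, 2529, 2589, 2606, 2611, 2650, 2661, 2710, 2729, 2755, 2764, 2800, 2827, 2868, 2886, 2897, 2920, 2949, 2968, 2978, 3099, 3117, 3126, 3150, 3185, 3228,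 3235, 3269, 3282, 3304, 3349, 3370, 3395, 3416, 3428, 3462, 3465, 3504, 3591, 3640, 3657, 3668, 3682, 3722, 3729, 3748, 3852, 3858, 3873, 4032]

/-- the hexad system. -/
abbrev HexB : Set (Finset ArrayPt) :=
  {h : Finset Cfsg.ArrayPt | ∃ x ∈ Cfsg.ternaryGolayCode, Cfsg.ternarySupport x = h ∧ h.card = 6}

theorem hex1 : ∀ a : A, pc (S (index a)) = 6 → S (index a) ∈ hexL := by decide +kernel

theorem hex2 : ∀ h ∈ hexL, ∃ a : A, S (index a) = h ∧ pc h = 6 := by decide +kernel

theorem hex_lt : ∀ h ∈ hexL, h < 2 ^ 12 := by decide +kernel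

theorem hex_nodup : hexL.Nodup := by decide +kernel

theorem hex_length : hexL.length = 132 := by decide +kernel

theorem mem_HexB_iff (h : Finset ArrayPt) : h ∈ HexB ↔ mask h ∈ hexL := by
  constructor
  · rintro ⟨x, hx, rfl, hc⟩
    rw [eq_enc hx] at hc ⊢
    rw [card_support_enc] at hc
    rw [mask_support_enc]
    exact hex1 _ hc
  · intro hm
    obtain ⟨a, ha, hp⟩ := hex2 _ hm
    refine ⟨enc a, enc_mem a, ?_, ?_⟩
    · apply mask_injective
      rw [mask_support_enc, ha]
    · rw [card_eq_pc, hp]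

theorem unmask_mem_HexB {m : ℕ} (hm : m ∈ hexL) : unmask m ∈ HexB := by
  rw [mem_HexB_iff, mask_unmask (hex_lt m hm)]
  exact hm

def stCheck (m : ℕ) : Bool :=
  (pc m != 5) || hexL.any (fun h => (Nat.land m h == m) &&
    hexL.all (fun h' => (Nat.land m h' != m) || h' == h))

theorem st_all : allBelow stCheck 4096 = true := by decide +kernel

theorem st_mask {m : ℕ} (hm : m < 4096) (h5 : pc m = 5) :
    ∃ h ∈ hexL, m &&& h = m ∧ ∀ h' ∈ hexL, m &&& h' = m → h' = h := by
  have h := (allBelow_iff _ _).1 st_all m hm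
  simp only [stCheck, h5, bne_self_eq_false, Bool.false_or, List.any_eq_true, Bool.and_eq_true,
    beq_iff_eq, List.all_eq_true, Bool.or_eq_true, bne_iff_ne, ne_eq] at h
  obtain ⟨k, hk, h1, h2⟩ := h
  refine ⟨k, hk, h1, fun h' hh' e => ?_⟩
  rcases h2 h' hh' with h3 | h3
  · exact absurd e h3
  · exact h3

theorem steiner : IsSteinerSystem 5 6 HexB := by
  refine ⟨?_, ?_⟩
  · rintro b ⟨x, _, _, hc⟩
    exact hc
  · intro s hs
    rw [card_eq_pc] at hs
    obtain ⟨h, hh, h1, h2⟩ := st_mask (mask_lt s) hs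
    refine ⟨unmask h, ⟨unmask_mem_HexB hh, ?_⟩, ?_⟩
    · rw [subset_iff_mask, mask_unmask (hex_lt h hh)]
      exact h1
    · rintro b ⟨hb, hsb⟩
      rw [mem_HexB_iff] at hb
      rw [subset_iff_mask] at hsb
      rw [← h2 _ hb hsb, unmask_mask]

theorem HexB_eq : HexB = ↑(hexL.toFinset.image unmask) := by
  ext h
  rw [mem_HexB_iff]
  simp only [Finset.coe_image, List.coe_toFinset, Set.mem_image, Set.mem_ofPred_eq]
  constructor
  · intro hm
    exact ⟨mask h, hm, unmask_mask h⟩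
  · rintro ⟨m, hm, rfl⟩
    rw [mask_unmask (hex_lt m hm)]
    exact hm

theorem ncard_HexB : HexB.ncard = 132 := by
  rw [HexB_eq, Set.ncard_coe_finset, Finset.card_image_of_injOn, List.toFinset_card_of_nodup hex_nodup,
    hex_length]
  intro m hm n hn h
  simp only [List.coe_toFinset, Set.mem_ofPred_eq] at hm hn
  exact unmask_injOn (hex_lt m hm) (hex_lt n hn) h

end Cfsg.Agent.Lib.Helper56.TG
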