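import Mathlib
import Cfsg.Prelude.Def_SporadicCombinatorics
import Cfsg.Agent.Lib.Helper56.TGHex
import Cfsg.Agent.Lib.Helper56.SchreierSims

/-!
# Monomial automorphisms of the ternary Golay code: an explicit copy of `M₁₂` of order 95040
-/

set_option autoImplicit false
set_option synthInstance.maxSize 1000
set_option synthInstance.maxHeartbeats 200000

namespace Cfsg.Agent.Lib.Helper56.TG

open Cfsg
open Cfsg.Agent.Lib.Helper56

/-- a permutation of the 12 points from the lists of images of it and of its inverse. -/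
def mkP (L Li : List ℕ) (h : ∀ p : ArrayPt, pt (Li.getD (idx (pt (L.getD (idx p) 0))) 0) = p ∧
    pt (L.getD (idx (pt (Li.getD (idx p) 0))) 0) = p) : Equiv.Perm ArrayPt :=
  ⟨fun p => pt (L.getD (idx p) 0), fun p => pt (Li.getD (idx p) 0), fun p => (h p).1,
    fun p => (h p).2⟩

def p0 : Equiv.Perm ArrayPt := mkP [0, 1, 2, 3, 5, 4, 9, 11, 10, 6, 8, 7] [0, 1, 2, 3, 5, 4, 9, 11, 10, 6, 8, 7] (by decide +kernel)
def p1 : Equiv.Perm ArrayPt := mkP [0, 1, 2, 3, 6, 9, 5, 8, 11, 4, 7, 10] [0, 1, 2, 3, 9, 6, 4, 10, 7, 5, 11, 8] (by decide +kernel)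
def p2 : Equiv.Perm ArrayPt := mkP [0, 1, 2, 3, 7, 11, 10, 5, 6, 8, 9, 4] [0, 1, 2, 3, 11, 7, 8, 4, 9, 10, 6, 5] (by decide +kernel)
def p3 : Equiv.Perm ArrayPt := mkP [0, 1, 2, 4, 3, 5, 10, 9, 11, 7, 6, 8] [0, 1, 2, 4, 3, 5, 10, 9, 11, 7, 6, 8] (by decide +kernel)
def p4 : Equiv.Perm ArrayPt := mkP [0, 1, 3, 2, 4, 5, 7, 6, 10, 11, 8, 9] [0, 1, 3, 2, 4, 5, 7, 6, 10, 11, 8, 9] (by decide +kernel)
def p5 : Equiv.Perm ArrayPt := mkP [0, 2, 1, 3, 4, 5, 9, 10, 11, 6, 7, 8] [0, 2, 1, 3, 4, 5, 9, 10, 11, 6, 7, 8] (by decide +kernel)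
def p6 : Equiv.Perm ArrayPt := mkP [1, 0, 2, 3, 4, 5, 11, 9, 10, 7, 8, 6] [1, 0, 2, 3, 4, 5, 11, 9, 10, 7, 8, 6] (by decide +kernel)

def gen (j : ℕ) : Equiv.Perm ArrayPt := [p0, p1, p2, p3, p4, p5, p6].getD j 1

/-- sign vector from a mask. -/
def sgn (m : ℕ) : ArrayPt → (ZMod 3)ˣ := fun p => if m.testBit (idx p) then -1 else 1

def cs (j : ℕ) : ArrayPt → (ZMod 3)ˣ := sgn ([0, 6, 5, 0, 1331, 0, 0].getD j 0)

def word0 (δ : ArrayPt) : List ℕ :=
  [[], [6], [5, 6], [4, 5, 6], [3, 4, 5, 6], [0, 3, 4, 5, 6], [1, 3, 4, 5, 6], [2, 3, 4, 5, 6], [1, 2, 3, 4, 5, 6], [1, 0, 3, 4, 5, 6], [2, 1, 3, 4, 5, 6], [2, 0, 3, 4, 5, 6]].getD (idx δ) []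

def cert0 (j : ℕ) (δ : ArrayPt) : List ℕ :=
  ([[[0], [0], [0], [0], [], [], [], [], [], [], [], []],
    [[1], [2, 0], [2], [1, 2], [], [], [], [], [], [], [], []],
    [[2], [1, 0], [1, 2], [2], [], [], [], [], [], [], [], []],
    [[3], [3], [3], [], [], [0], [2, 0], [1], [2, 1], [1, 0], [2], [1, 2]],
    [[4], [4], [], [], [3], [3], [3], [3], [3], [3], [3], [3]],
    [[5], [], [], [4], [4], [4], [4], [4], [4], [4], [4], [4]],
    [[], [], [5], [5], [5], [5], [5], [5], [5], [5], [5], [5]]].getD j []).getD (idx δ) []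

def orb0 : Finset ArrayPt := Finset.univ.filter (fun p => 0 ≤ idx p)

def word1 (δ : ArrayPt) : List ℕ :=
  [[], [], [5], [4, 5], [3, 4, 5], [0, 3, 4, 5], [1, 3, 4, 5], [2, 3, 4, 5], [1, 2, 3, 4, 5], [1, 0, 3, 4, 5], [2, 1, 3, 4, 5], [2, 0, 3, 4, 5]].getD (idx δ) []

def cert1 (j : ℕ) (δ : ArrayPt) : List ℕ :=
  ([[[], [0], [0], [0], [], [], [], [], [], [], [], []],
    [[], [1], [1, 0], [2, 1], [], [], [], [], [], [], [], []],
    [[], [2], [2, 1], [1, 0], [], [], [], [], [], [], [], []],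
    [[], [3], [3], [], [], [0], [1], [2, 0], [1, 2], [2], [1, 0], [2, 1]],
    [[], [4], [], [], [3], [3], [3], [3], [3], [3], [3], [3]],
    [[], [], [], [4], [4], [4], [4], [4], [4], [4], [4], [4]]].getD j []).getD (idx δ) []

def orb1 : Finset ArrayPt := Finset.univ.filter (fun p => 1 ≤ idx p)

def word2 (δ : ArrayPt) : List ℕ :=
  [[], [], [], [4], [3, 4], [0, 3, 4], [1, 3, 4], [2, 3, 4], [1, 2, 3, 4], [1, 0, 3, 4], [2, 1, 3, 4], [2, 0, 3, 4]].getD (idx δ) []

def cert2 (j : ℕ) (δ : ArrayPt) : List ℕ :=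
  ([[[], [], [0], [0], [], [], [], [], [], [], [], []],
    [[], [], [1], [2], [], [], [], [], [], [], [], []],
    [[], [], [2], [1], [], [], [], [], [], [], [], []],
    [[], [], [3], [], [], [0], [1, 0], [1, 2], [2, 0], [2, 1], [1], [2]],
    [[], [], [], [], [3], [3], [3], [3], [3], [3], [3], [3]]].getD j []).getD (idx δ) []

def orb2 : Finset ArrayPt := Finset.univ.filter (fun p => 2 ≤ idx p)

def word3 (δ : ArrayPt) : List ℕ :=
  [[], [], [], [], [3], [0, 3], [1, 3], [2, 3], [1, 2, 3], [1, 0, 3], [2, 1, 3], [2, 0, 3]].getD (idx δ) []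

def cert3 (j : ℕ) (δ : ArrayPt) : List ℕ :=
  ([[[], [], [], [0], [], [], [], [], [], [], [], []],
    [[], [], [], [1], [], [], [], [], [], [], [], []],
    [[], [], [], [2], [], [], [], [], [], [], [], []],
    [[], [], [], [], [], [0], [2, 0], [2, 1], [1, 0], [1, 2], [2], [1]]].getD j []).getD (idx δ) []

def orb3 : Finset ArrayPt := Finset.univ.filter (fun p => 3 ≤ idx p)

def word4 (δ : ArrayPt) : List ℕ :=
  [[], [], [], [], [], [0], [1], [2], [1, 2], [1, 0], [2, 1], [2, 0]].getD (idx δ) []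

def cert4 (j : ℕ) (δ : ArrayPt) : List ℕ :=
  ([[[], [], [], [], [], [], [], [], [], [], [], []],
    [[], [], [], [], [], [], [], [], [], [], [], []],
    [[], [], [], [], [], [], [], [], [], [], [], []]].getD j []).getD (idx δ) []

def orb4 : Finset ArrayPt := Finset.univ.filter (fun p => 4 ≤ idx p)


theorem step0 : (∀ g ∈ genSub gen 7, g • (pt 0) = pt 0 → g ∈ genSub gen 6) ∧
    Nat.card (genSub gen 7) = orb0.card * Nat.card (genSub gen 6) :=
  schreier_step gen 7 6 (by decide) (pt 0) orb0 word0 cert0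
    (by decide +kernel) (by decide +kernel) (by decide +kernel) (by decide +kernel)
    (by decide +kernel)

theorem step1 : (∀ g ∈ genSub gen 6, g • (pt 1) = pt 1 → g ∈ genSub gen 5) ∧
    Nat.card (genSub gen 6) = orb1.card * Nat.card (genSub gen 5) :=
  schreier_step gen 6 5 (by decide) (pt 1) orb1 word1 cert1
    (by decide +kernel) (by decide +kernel) (by decide +kernel) (by decide +kernel)
    (by decide +kernel)

theorem step2 : (∀ g ∈ genSub gen 5, g • (pt 2) = pt 2 → g ∈ genSub gen 4) ∧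
    Nat.card (genSub gen 5) = orb2.card * Nat.card (genSub gen 4) :=
  schreier_step gen 5 4 (by decide) (pt 2) orb2 word2 cert2
    (by decide +kernel) (by decide +kernel) (by decide +kernel) (by decide +kernel)
    (by decide +kernel)

theorem step3 : (∀ g ∈ genSub gen 4, g • (pt 3) = pt 3 → g ∈ genSub gen 3) ∧
    Nat.card (genSub gen 4) = orb3.card * Nat.card (genSub gen 3) :=
  schreier_step gen 4 3 (by decide) (pt 3) orb3 word3 cert3
    (by decide +kernel) (by decide +kernel) (by decide +kernel) (by decide +kernel)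
    (by decide +kernel)

theorem step4 : (∀ g ∈ genSub gen 3, g • (pt 4) = pt 4 → g ∈ genSub gen 0) ∧
    Nat.card (genSub gen 3) = orb4.card * Nat.card (genSub gen 0) :=
  schreier_step gen 3 0 (by decide) (pt 4) orb4 word4 cert4
    (by decide +kernel) (by decide +kernel) (by decide +kernel) (by decide +kernel)
    (by decide +kernel)

theorem card0 : Nat.card (genSub gen 0) = 1 := by
  rw [genSub_zero]; simp

theorem card3 : Nat.card (genSub gen 3) = 8 := by
  rw [step4.2, card0]; decide +kernel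

theorem card4 : Nat.card (genSub gen 4) = 72 := by
  rw [step3.2, card3]; decide +kernel

theorem card5 : Nat.card (genSub gen 5) = 720 := by
  rw [step2.2, card4]; decide +kernel

theorem card6 : Nat.card (genSub gen 6) = 7920 := by
  rw [step1.2, card5]; decide +kernel

theorem card7 : Nat.card (genSub gen 7) = 95040 := by
  rw [step0.2, card6]; decide +kernel

/-! ### monomial maps -/

theorem monomialMap_enc (σ : Equiv.Perm ArrayPt) (c : ArrayPt → (ZMod 3)ˣ) (a : A) :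
    monomialMap σ c (enc a) = a.1 • monomialMap σ c (g 0) + a.2.1 • monomialMap σ c (g 1) +
      a.2.2.1 • monomialMap σ c (g 2) + a.2.2.2.1 • monomialMap σ c (g 3) +
      a.2.2.2.2.1 • monomialMap σ c (g 4) + a.2.2.2.2.2 • monomialMap σ c (g 5) := by
  funext i
  simp only [monomialMap, enc, Pi.add_apply, Pi.smul_apply, smul_eq_mul]
  ring

theorem monomialMap_mem_of_basis {σ : Equiv.Perm ArrayPt} {c : ArrayPt → (ZMod 3)ˣ}
    (h : ∀ i < 6, monomialMap σ c (g i) ∈ ternaryGolayCode) :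
    ∀ x ∈ ternaryGolayCode, monomialMap σ c x ∈ ternaryGolayCode := by
  intro x hx
  rw [eq_enc hx, monomialMap_enc]
  refine Submodule.add_mem _ (Submodule.add_mem _ (Submodule.add_mem _ (Submodule.add_mem _
    (Submodule.add_mem _ ?_ ?_) ?_) ?_) ?_) ?_ <;>
  exact Submodule.smul_mem _ _ (h _ (by decide))

theorem gen_basis : ∀ j < 7, ∀ i < 6, isWord (monomialMap (gen j) (cs j) (g i)) := by
  decide +kernel

theorem gen_mem (j : ℕ) (hj : j < 7) :
    ∀ x ∈ ternaryGolayCode, monomialMap (gen j) (cs j) x ∈ ternaryGolayCode :=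
  monomialMap_mem_of_basis (fun i hi => (mem_code_iff _).2 (gen_basis j hj i hi))

theorem monomialMap_mul (σ τ : Equiv.Perm ArrayPt) (c d : ArrayPt → (ZMod 3)ˣ) (x : Wd) :
    monomialMap σ c (monomialMap τ d x) = monomialMap (σ * τ) (fun i => c i * d (σ.symm i)) x := by
  funext i
  simp only [monomialMap, Units.val_mul, mul_assoc]
  rfl

/-- permutation parts of the monomial automorphisms. -/
def IsMon (σ : Equiv.Perm ArrayPt) : Prop :=
  ∃ c : ArrayPt → (ZMod 3)ˣ, ∀ x ∈ ternaryGolayCode, monomialMap σ c x ∈ ternaryGolayCode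

theorem isMon_one : IsMon 1 := by
  refine ⟨fun _ => 1, fun x hx => ?_⟩
  have : monomialMap (1 : Equiv.Perm ArrayPt) (fun _ => (1 : (ZMod 3)ˣ)) x = x := by
    funext i
    simp only [monomialMap, Units.val_one, one_mul]
    rfl
  rw [this]; exact hx

theorem isMon_of_mem {σ : Equiv.Perm ArrayPt} (hσ : σ ∈ genSub gen 7) : IsMon σ := by
  have h := smul_mem_of_mem_closure (G := Equiv.Perm ArrayPt) (X := Equiv.Perm ArrayPt)
    (T := {g | ∃ j : ℕ, j < 7 ∧ gen j = g}) (S := {σ | IsMon σ}) (Set.toFinite _) (by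
      rintro t ⟨j, hj, rfl⟩ τ ⟨d, hd⟩
      refine ⟨fun i => cs j i * d ((gen j).symm i), fun x hx => ?_⟩
      rw [smul_eq_mul, ← monomialMap_mul]
      exact gen_mem j hj _ (hd x hx)) hσ isMon_one
  simpa using h

end Cfsg.Agent.Lib.Helper56.TG
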