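import Mathlib
import Cfsg.Prelude.Def_SporadicCombinatorics
import Cfsg.Agent.Lib.Helper56.St12Sound
import Cfsg.Agent.S1594

/-!
# Uniqueness of the Steiner system S(5,6,12)

Every Steiner system S(5,6,12) is isomorphic to the hexad system `HexB` of the ternary Golay code.
-/

set_option autoImplicit false

namespace Cfsg.Agent.Lib.Helper56.St12

open Cfsg
open Cfsg.Agent.Lib.Helper56.TG
open scoped Pointwise

theorem steiner_image {α β : Type*} [DecidableEq β] (e : α ≃ β) {t k : ℕ} {B : Set (Finset α)}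
    (h : IsSteinerSystem t k B) : IsSteinerSystem t k ((fun b => b.image e) '' B) := by
  refine ⟨?_, ?_⟩
  · rintro _ ⟨b, hb, rfl⟩
    show (b.image e).card = k
    rw [Finset.card_image_of_injective _ e.injective]
    exact h.1 b hb
  · intro s hs
    obtain ⟨b, ⟨hb, hsb⟩, hu⟩ := h.2 (s.map e.symm.toEmbedding) (by rw [Finset.card_map]; exact hs)
    refine ⟨b.image e, ⟨⟨b, hb, rfl⟩, ?_⟩, ?_⟩
    · intro y hy
      have h1 : e.symm y ∈ s.map e.symm.toEmbedding := Finset.mem_map_of_mem e.symm.toEmbedding hy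
      exact Finset.mem_image.2 ⟨e.symm y, hsb h1, e.apply_symm_apply y⟩
    · rintro _ ⟨⟨b', hb', rfl⟩, hs'⟩
      have h1 : s.map e.symm.toEmbedding ⊆ b' := by
        intro x hx
        obtain ⟨y, hy, rfl⟩ := Finset.mem_map.1 hx
        obtain ⟨x', hx', e'⟩ := Finset.mem_image.1 (hs' hy)
        show e.symm y ∈ b'
        rw [← e', e.symm_apply_apply]
        exact hx'
      show b'.image e = b.image e
      rw [hu b' ⟨hb', h1⟩]

theorem smul_eq_image (σ : Equiv.Perm ArrayPt) (B : Set (Finset ArrayPt)) :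
    σ • B = (fun b => b.image σ) '' B := rfl

theorem steiner_smul (σ : Equiv.Perm ArrayPt) {B : Set (Finset ArrayPt)}
    (h : IsSteinerSystem 5 6 B) : IsSteinerSystem 5 6 (σ • B) := by
  rw [smul_eq_image]
  exact steiner_image σ h

theorem mem4032 : ∀ p : ArrayPt, p ∈ unmask 4032 ↔ 6 ≤ idx p := by
  simp only [mem_unmask]
  decide +kernel

theorem hex4032 : unmask 4032 ∈ HexB := by
  rw [mem_HexB_iff, mask_unmask (by norm_num)]
  decide +kernel

/-- the permutations fixing the first six points. -/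
abbrev X : Type := {f : Equiv.Perm ArrayPt // ∀ a, ¬ (6 ≤ idx a) → f a = a}

theorem card_X : Nat.card X = 720 := by
  rw [← Nat.card_congr (Equiv.Perm.subtypeEquivSubtypePerm (fun a : ArrayPt => 6 ≤ idx a)),
    Nat.card_eq_fintype_card, Fintype.card_perm]
  have : Fintype.card {a : ArrayPt // 6 ≤ idx a} = 6 := by decide +kernel
  rw [this]; rfl

theorem X_smul (σ : X) : σ.1 • unmask 4032 = unmask 4032 := by
  apply Finset.eq_of_subset_of_card_le
  · intro q hq
    obtain ⟨p, hp, rfl⟩ := Finset.mem_smul_finset.1 hq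
    rw [mem4032] at hp ⊢
    by_contra hc
    have h1 : σ.1 (σ.1 p) = σ.1 p := σ.2 _ hc
    have h2 : σ.1 p = p := σ.1.injective h1
    apply hc
    show 6 ≤ idx (σ.1 p)
    rw [h2]; exact hp
  · rw [Finset.card_smul_finset]

theorem X_mem (σ : X) : σ.1 • HexB ∈ SS [4032] := by
  refine ⟨steiner_smul σ.1 steiner, ?_⟩
  intro m hm
  rw [List.mem_singleton] at hm
  subst hm
  rw [← X_smul σ]
  exact Set.smul_mem_smul_set hex4032

theorem X_inj : Function.Injective (fun σ : X => (⟨σ.1 • HexB, X_mem σ⟩ : SS [4032])) := by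
  intro σ τ h
  have h1 : σ.1 • HexB = τ.1 • HexB := congrArg Subtype.val h
  have h2 : (τ.1⁻¹ * σ.1) ∈ setSystemAut HexB := by
    show (τ.1⁻¹ * σ.1) • HexB = HexB
    rw [mul_smul, h1, inv_smul_smul]
  have h3 : ∀ k < 5, (τ.1⁻¹ * σ.1) (pt k) = pt k := by
    intro k hk
    have hk' : ¬ (6 ≤ idx (pt k)) := by rw [idx_pt (by omega)]; omega
    rw [Equiv.Perm.mul_apply, σ.2 _ hk']
    have := τ.2 _ hk'
    conv_lhs => rw [← this]
    exact τ.1.symm_apply_apply _
  have h4 := Cfsg.Agent.S1594.eq_one_of_fix h2 h3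
  exact Subtype.ext (inv_mul_eq_one.1 h4).symm

theorem exists_smul_eq {B : Set (Finset ArrayPt)} (hB : IsSteinerSystem 5 6 B)
    (h : unmask 4032 ∈ B) : ∃ σ : Equiv.Perm ArrayPt, σ • HexB = B := by
  have hfin : Finite (SS [4032]) := Set.toFinite _
  have hc : Nat.card (SS [4032]) ≤ Nat.card X := by
    rw [card_X, Nat.card_coe_set_eq]
    exact ncard_SS_le
  have hbij := X_inj.bijective_of_nat_card_le hc
  obtain ⟨σ, hσ⟩ := hbij.2 ⟨B, hB, by simpa using h⟩
  exact ⟨σ.1, congrArg Subtype.val hσ⟩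

theorem exists_equiv_image {α : Type*} [Fintype α] [DecidableEq α] (hα : Fintype.card α = 12)
    (H : Finset α) (hH : H.card = 6) : ∃ e : α ≃ ArrayPt, H.image e = unmask 4032 := by
  have hT : (unmask 4032).card = 6 := by rw [card_unmask (by norm_num)]; decide +kernel
  have hA : Fintype.card ArrayPt = 12 := by simp [ZMod.card]
  have c1 : Fintype.card {x // x ∈ H} = Fintype.card {y // y ∈ unmask 4032} := by
    rw [Fintype.card_coe, Fintype.card_coe, hH, hT]
  have c2 : Fintype.card {x // ¬ x ∈ H} = Fintype.card {y // ¬ y ∈ unmask 4032} := by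
    rw [Fintype.card_subtype_compl, Fintype.card_subtype_compl, Fintype.card_coe, Fintype.card_coe,
      hH, hT, hα, hA]
  let e1 := Fintype.equivOfCardEq c1
  let e2 := Fintype.equivOfCardEq c2
  let e : α ≃ ArrayPt := (Equiv.sumCompl (· ∈ H)).symm.trans
    ((Equiv.sumCongr e1 e2).trans (Equiv.sumCompl (· ∈ unmask 4032)))
  refine ⟨e, ?_⟩
  apply Finset.eq_of_subset_of_card_le
  · intro y hy
    obtain ⟨x, hx, rfl⟩ := Finset.mem_image.1 hy
    have : e x = (e1 ⟨x, hx⟩ : ArrayPt) := by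
      simp only [e, Equiv.trans_apply, Equiv.sumCompl_symm_apply_of_pos (p := (· ∈ H)) hx,
        Equiv.sumCongr_apply, Sum.map_inl, Equiv.sumCompl_apply_inl]
    rw [this]
    exact (e1 ⟨x, hx⟩).2
  · rw [Finset.card_image_of_injective _ e.injective, hH, hT]

/-- every S(5,6,12) is isomorphic to the hexad system of the ternary Golay code. -/
theorem iso_HexB {α : Type*} [Fintype α] [DecidableEq α] (hα : Fintype.card α = 12)
    {B : Set (Finset α)} (hB : IsSteinerSystem 5 6 B) : SetSystemIso B HexB := by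
  obtain ⟨s, _, hs⟩ := Finset.exists_subset_card_eq (s := (Finset.univ : Finset α)) (n := 5)
    (by rw [Finset.card_univ, hα]; norm_num)
  obtain ⟨H, ⟨hH, _⟩, _⟩ := hB.2 s hs
  obtain ⟨e0, he0⟩ := exists_equiv_image hα H (hB.1 H hH)
  obtain ⟨σ, hσ⟩ := exists_smul_eq (steiner_image e0 hB) ⟨H, hH, he0⟩
  refine ⟨e0.trans σ.symm, ?_⟩
  have h1 : (fun b : Finset α => b.image (e0.trans σ.symm)) =
      (fun c : Finset ArrayPt => c.image σ.symm) ∘ (fun b : Finset α => b.image e0) := by
    funext b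
    simp only [Function.comp, Finset.image_image]
    rfl
  rw [h1, Set.image_comp, ← hσ]
  show σ⁻¹ • σ • HexB = HexB
  rw [inv_smul_smul]

end Cfsg.Agent.Lib.Helper56.St12
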