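import Mathlib
import Cfsg.Prelude.Def_SporadicCombinatorics
import Cfsg.Agent.Lib.Helper27.Mask

/-!
# Bitmask model of subsets of the 12 points `ArrayPt = Fin 4 × ZMod 3`

Adapted from helper27's 24 point model.  The point `(i, r)` has index `3 * i + r`.
-/

set_option autoImplicit false

namespace Cfsg.Agent.Lib.Helper56.TG

open Cfsg
open Cfsg.Agent.Lib.Helper27 (pc pcAux pcAux_eq pc_eq pcAux_add allBelow allBelow_iff)

/-- index of a point. -/
def idx (p : ArrayPt) : ℕ := 3 * p.1.val + ZMod.val p.2

/-- the point with a given index. -/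
def pt (i : ℕ) : ArrayPt := (Fin.ofNat 4 (i / 3), ((i % 3 : ℕ) : ZMod 3))

theorem idx_lt (p : ArrayPt) : idx p < 12 := by revert p; decide

theorem pt_idx (p : ArrayPt) : pt (idx p) = p := by revert p; decide

theorem idx_pt {i : ℕ} (h : i < 12) : idx (pt i) = i := by
  revert i; decide

theorem idx_injective : Function.Injective idx := fun p q h => by
  rw [← pt_idx p, ← pt_idx q, h]

theorem idx_eq_iff {p q : ArrayPt} : idx p = idx q ↔ p = q := idx_injective.eq_iff

theorem forall_pt {P : ArrayPt → Prop} (h : ∀ i < 12, P (pt i)) (p : ArrayPt) : P p := by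
  rw [← pt_idx p]; exact h _ (idx_lt p)

/-- the bitmask of a set of points. -/
def mask (s : Finset ArrayPt) : ℕ := Nat.ofBits (fun i : Fin 12 => decide (pt i ∈ s))

/-- the set of points of a bitmask (only the low 12 bits matter). -/
def unmask (m : ℕ) : Finset ArrayPt := Finset.univ.filter (fun p => m.testBit (idx p) = true)

theorem mask_lt (s : Finset ArrayPt) : mask s < 2 ^ 12 := Nat.ofBits_lt_two_pow _

theorem testBit_mask_of_lt (s : Finset ArrayPt) {i : ℕ} (h : i < 12) :
    (mask s).testBit i = decide (pt i ∈ s) := by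
  unfold mask; rw [Nat.testBit_ofBits_lt _ _ h]

theorem testBit_mask_idx (s : Finset ArrayPt) (p : ArrayPt) :
    (mask s).testBit (idx p) = decide (p ∈ s) := by
  rw [testBit_mask_of_lt s (idx_lt p), pt_idx]

theorem mem_iff_testBit (s : Finset ArrayPt) (p : ArrayPt) :
    p ∈ s ↔ (mask s).testBit (idx p) = true := by
  rw [testBit_mask_idx]; simp

@[simp] theorem mem_unmask (m : ℕ) (p : ArrayPt) : p ∈ unmask m ↔ m.testBit (idx p) = true := by
  simp [unmask]

@[simp] theorem unmask_mask (s : Finset ArrayPt) : unmask (mask s) = s := by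
  ext p; rw [mem_unmask, ← mem_iff_testBit]

theorem mask_injective : Function.Injective mask := fun s t h => by
  rw [← unmask_mask s, ← unmask_mask t, h]

theorem mask_eq_iff {s t : Finset ArrayPt} : mask s = mask t ↔ s = t := mask_injective.eq_iff

theorem eq_of_testBit_idx {m n : ℕ} (hm : m < 2 ^ 12) (hn : n < 2 ^ 12)
    (h : ∀ p : ArrayPt, m.testBit (idx p) = n.testBit (idx p)) : m = n := by
  apply Nat.eq_of_testBit_eq
  intro i
  by_cases hi : i < 12
  · have := h (pt i); rwa [idx_pt hi] at this
  · have hi' : 12 ≤ i := Nat.le_of_not_lt hi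
    have h2 : 2 ^ 12 ≤ 2 ^ i := Nat.pow_le_pow_right (by norm_num) hi'
    rw [Nat.testBit_lt_two_pow (lt_of_lt_of_le hm h2), Nat.testBit_lt_two_pow (lt_of_lt_of_le hn h2)]

theorem mask_unmask {m : ℕ} (h : m < 2 ^ 12) : mask (unmask m) = m := by
  apply eq_of_testBit_idx (mask_lt _) h
  intro p
  rw [testBit_mask_idx]
  by_cases hp : m.testBit (idx p) = true <;> simp [hp]

theorem eq_unmask_iff {s : Finset ArrayPt} {m : ℕ} (h : m < 2 ^ 12) : s = unmask m ↔ mask s = m := by
  constructor
  · rintro rfl; exact mask_unmask h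
  · rintro rfl; exact (unmask_mask s).symm

theorem mask_inter (s t : Finset ArrayPt) : mask (s ∩ t) = mask s &&& mask t := by
  apply eq_of_testBit_idx (mask_lt _) (lt_of_le_of_lt Nat.and_le_left (mask_lt _))
  intro p
  simp only [Nat.testBit_and, testBit_mask_idx, Finset.mem_inter, Bool.decide_and]

theorem mask_union (s t : Finset ArrayPt) : mask (s ∪ t) = mask s ||| mask t := by
  apply eq_of_testBit_idx (mask_lt _) (Nat.or_lt_two_pow (mask_lt _) (mask_lt _))
  intro p
  simp only [Nat.testBit_or, testBit_mask_idx, Finset.mem_union, Bool.decide_or]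

@[simp] theorem mask_empty : mask ∅ = 0 := by
  apply eq_of_testBit_idx (mask_lt _) (by norm_num)
  intro p; simp [testBit_mask_idx]

theorem mask_singleton (p : ArrayPt) : mask {p} = 2 ^ idx p := by
  apply eq_of_testBit_idx (mask_lt _) (Nat.pow_lt_pow_right (by norm_num) (idx_lt p))
  intro q
  rw [testBit_mask_idx, Nat.testBit_two_pow]
  simp only [Finset.mem_singleton, idx_eq_iff]
  by_cases h : q = p
  · simp [h]
  · have h' : ¬ p = q := fun e => h e.symm
    simp [h, h']

theorem mask_insert (p : ArrayPt) (s : Finset ArrayPt) : mask (insert p s) = 2 ^ idx p ||| mask s := by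
  rw [Finset.insert_eq, mask_union, mask_singleton]

theorem subset_iff_mask {s t : Finset ArrayPt} : s ⊆ t ↔ mask s &&& mask t = mask s := by
  rw [← mask_inter, mask_eq_iff, Finset.inter_eq_left]

theorem unmask_injOn {m n : ℕ} (hm : m < 2 ^ 12) (hn : n < 2 ^ 12) (h : unmask m = unmask n) :
    m = n := by
  rw [← mask_unmask hm, ← mask_unmask hn, h]

theorem card_unmask_eq_pcAux (m : ℕ) : (unmask m).card = pcAux m 12 := by
  rw [pcAux_eq]
  apply Finset.card_bij (fun p _ => idx p)
  · intro p hp
    simp only [Finset.mem_filter, Finset.mem_range]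
    exact ⟨idx_lt p, (mem_unmask m p).1 hp⟩
  · intro p _ q _ h; exact idx_injective h
  · intro i hi
    simp only [Finset.mem_filter, Finset.mem_range] at hi
    refine ⟨pt i, ?_, idx_pt hi.1⟩
    rw [mem_unmask, idx_pt hi.1]; exact hi.2

theorem pcAux_zero (n : ℕ) : pcAux 0 n = 0 := by
  induction n with
  | zero => rfl
  | succ n ih => simp [pcAux, ih]

theorem card_unmask {m : ℕ} (h : m < 2 ^ 12) : (unmask m).card = pc m := by
  rw [pc_eq, card_unmask_eq_pcAux, show (24 : ℕ) = 12 + 12 from rfl, pcAux_add,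
    Nat.shiftRight_eq_div_pow, Nat.div_eq_of_lt h, pcAux_zero, Nat.add_zero]

theorem card_eq_pc (s : Finset ArrayPt) : s.card = pc (mask s) := by
  rw [← card_unmask (mask_lt s), unmask_mask]

end Cfsg.Agent.Lib.Helper56.TG
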